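import Mathlib
import Cfsg.Agent.Lib.Helper74.SymAlgDefs

/-!
# Lifting matrix units modulo a nil ideal (helper96; piece R2 of S4648)
-/

set_option autoImplicit false

namespace Cfsg.Agent.Lib.Helper96.SymAlgR2

/-- A nilpotent idempotent is zero. -/
theorem idem_nilp_zero {R : Type*} [Ring R] {e : R} (he : e * e = e) (hn : IsNilpotent e) :
    e = 0 := by
  obtain ⟨k, hk⟩ := hn
  have : ∀ m : ℕ, e ^ (m + 1) = e := by
    intro m
    induction m with
    | zero => simp
    | succ m ih => rw [pow_succ, ih, he]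
  rcases k with - | k
  · have h1 : (1 : R) = 0 := by simpa using hk
    calc e = e * 1 := (mul_one e).symm
      _ = 0 := by rw [h1, mul_zero]
  · rw [← this k, hk]

/-- Matrix units lift along a surjection with nil kernel. -/
theorem lift_units {R S : Type*} [Ring R] [Ring S] (f : R →+* S)
    (hf : Function.Surjective f) (h : ∀ x ∈ RingHom.ker f, IsNilpotent x) {n : ℕ}
    (E : Fin n → Fin n → S)
    (hE : ∀ i j k l, E i j * E k l = if j = k then E i l else 0)
    (hone : ∑ i, E i i = 1) :
    ∃ a : Fin n → Fin n → R, (∀ i j k l, a i j * a k l = if j = k then a i l else 0) ∧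
      ∑ i, a i i = 1 ∧ ∀ i j, f (a i j) = E i j := by
  classical
  have hcoi : CompleteOrthogonalIdempotents (fun i => E i i) := by
    refine ⟨⟨fun i => ?_, fun i j hij => ?_⟩, hone⟩
    · show E i i * E i i = E i i
      rw [hE, if_pos rfl]
    · show E i i * E j j = 0
      rw [hE, if_neg hij]
  obtain ⟨ε, hε, hfε⟩ := CompleteOrthogonalIdempotents.lift_of_isNilpotent_ker f h hcoi
    (fun i => ⟨_, (hf (E i i)).choose_spec⟩)
  have hfε' : ∀ i, f (ε i) = E i i := fun i => congr_fun hfε i
  have hεε : ∀ i, ε i * ε i = ε i := fun i => hε.idem i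
  have hεo : ∀ i j, i ≠ j → ε i * ε j = 0 := fun i j hij => hε.ortho hij
  rcases n with - | n
  · refine ⟨fun i => i.elim0, fun i => i.elim0, ?_, fun i => i.elim0⟩
    have := hε.complete
    simpa using this
  -- for each `i`, elements `X i ∈ ε 0 R ε i`, `Y i ∈ ε i R ε 0`
  have key : ∀ i : Fin (n + 1), ∃ X Y : R, ε 0 * X = X ∧ X * ε i = X ∧ ε i * Y = Y ∧
      Y * ε 0 = Y ∧ X * Y = ε 0 ∧ Y * X = ε i ∧ f X = E 0 i ∧ f Y = E i 0 := by
    intro i
    obtain ⟨x', hx'⟩ := hf (E 0 i)
    obtain ⟨y', hy'⟩ := hf (E i 0)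
    set x := ε 0 * x' * ε i with hx
    set y := ε i * y' * ε 0 with hy
    have hfx : f x = E 0 i := by
      rw [hx, map_mul, map_mul, hfε', hfε', hx', hE, if_pos rfl, hE, if_pos rfl]
    have hfy : f y = E i 0 := by
      rw [hy, map_mul, map_mul, hfε', hfε', hy', hE, if_pos rfl, hE, if_pos rfl]
    set r := ε 0 - x * y with hr
    have hrker : r ∈ RingHom.ker f := by
      rw [RingHom.mem_ker, hr, map_sub, map_mul, hfx, hfy, hfε', hE, if_pos rfl, sub_self]
    have hrn : IsNilpotent r := h r hrker
    have hre : r * ε 0 = r := by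
      rw [hr, sub_mul, hεε, hy]
      simp only [mul_assoc, hεε]
    obtain ⟨u, hu⟩ := (hrn.isUnit_one_sub).exists_left_inv
    have hfu : f u = 1 := by
      have := congrArg f hu
      rw [map_mul, map_sub, map_one, (RingHom.mem_ker).1 hrker, sub_zero, mul_one] at this
      exact this
    have hxy : x * y = (1 - r) * ε 0 := by
      rw [sub_mul, one_mul, hre, hr]; abel
    have hXY : (ε 0 * u * x) * y = ε 0 := by
      rw [mul_assoc, hxy, mul_assoc, ← mul_assoc u, hu, one_mul, hεε]
    have hey : ε i * y = y := by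
      rw [hy]; simp only [← mul_assoc, hεε]
    have hye : y * ε 0 = y := by
      rw [hy]; simp only [mul_assoc, hεε]
    have hxe : x * ε i = x := by
      rw [hx]; simp only [mul_assoc, hεε]
    have hfX : f (ε 0 * u * x) = E 0 i := by
      rw [map_mul, map_mul, hfu, hfε', hfx, mul_one, hE, if_pos rfl]
    refine ⟨ε 0 * u * x, y, ?_, ?_, hey, hye, hXY, ?_, hfX, hfy⟩
    · simp only [← mul_assoc, hεε]
    · rw [mul_assoc, hxe]
    · -- `ε i - y X` is a nilpotent idempotent
      set X := ε 0 * u * x with hX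
      have hXe : X * ε i = X := by rw [hX, mul_assoc, hxe]
      have hidem : (y * X) * (y * X) = y * X := by
        calc (y * X) * (y * X) = y * (X * y) * X := by simp only [mul_assoc]
          _ = y * X := by rw [hXY, hye]
      have h1 : ε i * (y * X) = y * X := by rw [← mul_assoc, hey]
      have h2 : (y * X) * ε i = y * X := by rw [mul_assoc, hXe]
      have hid2 : (ε i - y * X) * (ε i - y * X) = ε i - y * X := by
        rw [sub_mul, mul_sub, mul_sub, hεε, h1, h2, hidem]; abel
      have hk : ε i - y * X ∈ RingHom.ker f := by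
        rw [RingHom.mem_ker, map_sub, map_mul, hfy, hfX, hfε', hE, if_pos rfl, sub_self]
      have := idem_nilp_zero hid2 (h _ hk)
      exact (sub_eq_zero.1 this).symm
  choose X Y h1 h2 h3 h4 h5 h6 h7 h8 using key
  refine ⟨fun i j => Y i * X j, ?_, ?_, ?_⟩
  · intro i j k l
    show Y i * X j * (Y k * X l) = _
    split_ifs with hjk
    · subst hjk
      rw [mul_assoc, ← mul_assoc (X j), h5, h1]
    · rw [mul_assoc, ← mul_assoc (X j), ← h2 j, ← h3 k, mul_assoc (X j), ← mul_assoc (ε j),
        hεo j k hjk]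
      simp
  · show ∑ i, Y i * X i = 1
    simp only [h6]
    exact hε.complete
  · intro i j
    show f (Y i * X j) = _
    rw [map_mul, h7, h8, hE, if_pos rfl]

variable {F A : Type*} [Field F] [Ring A] [Algebra F A] [FiniteDimensional F A]

theorem R2 {n : ℕ} (φ : A →ₐ[F] Matrix (Fin n) (Fin n) F) (hφ : Function.Surjective φ)
    (hJ : ∀ x, φ x = 0 ↔ x ∈ Ring.jacobson A) :
    ∃ a : Fin n → Fin n → A, (∀ i j k l, a i j * a k l = if j = k then a i l else 0) ∧
      ∑ i, a i i = 1 ∧ ∀ i j, φ (a i j) = Matrix.single i j 1 := by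
  have : IsArtinianRing A := IsArtinianRing.of_finite F A
  have hnil : IsNilpotent (Ring.jacobson A) := IsSemiprimaryRing.isNilpotent
  have h : ∀ x ∈ RingHom.ker (φ : A →+* Matrix (Fin n) (Fin n) F), IsNilpotent x := by
    intro x hx
    have hx' : x ∈ Ring.jacobson A := (hJ x).1 hx
    obtain ⟨k, hk⟩ := hnil
    refine ⟨k, ?_⟩
    have := Ideal.pow_mem_pow hx' k
    rw [hk] at this
    simpa using this
  exact lift_units (φ : A →+* Matrix (Fin n) (Fin n) F) hφ h
    (fun i j => Matrix.single i j 1)
    (fun i j k l => by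
      split_ifs with hjk
      · subst hjk
        simp
      · simp [Matrix.single_mul_single_of_ne, hjk])
    (by
      simp [Matrix.sum_single_one] )

end Cfsg.Agent.Lib.Helper96.SymAlgR2
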