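import Cfsg.Agent.Lib.Helper96.St2Gen
import Cfsg.Agent.Lib.Helper17.StPres4

/-!
# The rank one subgroups `⟨X_r, X_{-r}⟩` of the tabulated Chevalley groups are images of `SL₂`
-/

set_option autoImplicit false

namespace Cfsg.Agent.Lib.Helper96.ChevSL2

open Cfsg.Lie Matrix Cfsg.Agent.Lib.Helper18 Cfsg.Agent.Lib.Helper36 Cfsg.Agent.Lib.Helper17
open Cfsg.Agent.Lib.Helper66

variable {D : ChevalleyDatum} {T : Fast} {W : WTab} {K : Type*} [Field K]

/-- relation (B') for the root `r` -/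
def RelP (hB : Base D K) (r : ℕ) : Prop :=
  ∀ t u : K, t ≠ 0 → hB.ng r t * hB.xg r u * (hB.ng r t)⁻¹ = hB.xg (D.neg r) (-(t⁻¹ ^ 2 * u))

theorem relP_simple (A : AllH D T W K) {i : ℕ} (hi : i < D.rank) : RelP A.hB (D.simple i) := by
  intro t u ht
  have hp := A.hT.simple_lt i hi
  have h1 := A.ng_conj_xg_sgn hi hp ht u
  rw [A.hT.refl_simple' hi, A.h.cartan_neg i hi _ hp, A.h.cartan_self i hi,
    (A.h.sgn_props i hi).1] at h1
  rw [h1]
  congr 1
  rw [_root_.zpow_neg]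
  push_cast
  have : t ^ (2 : ℤ) = t ^ 2 := by norm_cast
  rw [this, inv_pow]; ring

/-- transport of relation (B') -/
theorem relP_transport (hB : Base D K) {g : GL D.Idx K} {ε : K} (hε : ε = 1 ∨ ε = -1) {r s : ℕ}
    (h1 : ∀ t, g * hB.xg r t * g⁻¹ = hB.xg s (ε * t))
    (h2 : ∀ t, g * hB.xg (D.neg r) t * g⁻¹ = hB.xg (D.neg s) (ε * t))
    (h : RelP hB r) : RelP hB s := by
  intro t u ht
  have hε2 : ε * ε = 1 := by rcases hε with rfl | rfl <;> simp
  have hε0 : ε ≠ 0 := by rcases hε with rfl | rfl <;> simp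
  have hεi : ε⁻¹ = ε := by
    rw [inv_eq_iff_eq_inv, eq_comm, inv_eq_of_mul_eq_one_left hε2]
  have hn : g * hB.ng r (ε * t) * g⁻¹ = hB.ng s t := by
    unfold Base.ng
    have e : g * (hB.xg r (ε * t) * hB.xg (D.neg r) (-(ε * t)⁻¹) * hB.xg r (ε * t)) * g⁻¹ =
        (g * hB.xg r (ε * t) * g⁻¹) * (g * hB.xg (D.neg r) (-(ε * t)⁻¹) * g⁻¹) *
          (g * hB.xg r (ε * t) * g⁻¹) := by group
    rw [e, h1, h2]
    have e1 : ε * (ε * t) = t := by rw [← mul_assoc, hε2, one_mul]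
    have e2 : ε * -(ε * t)⁻¹ = -t⁻¹ := by
      rw [_root_.mul_inv, hεi, mul_neg, ← mul_assoc, hε2, one_mul]
    rw [e1, e2]
  have h3 := h (ε * t) (ε * u) (mul_ne_zero hε0 ht)
  have h4 : g * (hB.ng r (ε * t) * hB.xg r (ε * u) * (hB.ng r (ε * t))⁻¹) * g⁻¹ =
      (g * hB.ng r (ε * t) * g⁻¹) * (g * hB.xg r (ε * u) * g⁻¹) * (g * hB.ng r (ε * t) * g⁻¹)⁻¹ := by
    group
  rw [h3, hn, h1, h2] at h4
  have e1 : ε * (ε * u) = u := by rw [← mul_assoc, hε2, one_mul]
  rw [e1] at h4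
  rw [← h4]
  congr 1
  rw [_root_.mul_inv, hεi, mul_pow, pow_two ε, hε2, one_mul, mul_neg, mul_left_comm, ← mul_assoc ε ε,
    hε2, one_mul]

theorem relP_all (A : AllH D T W K) : ∀ r, r < D.nroots → RelP A.hB r := by
  obtain ⟨μ, hμ⟩ := A.hT.depth
  have key : ∀ n r, μ r = n → r < D.nroots → RelP A.hB r := by
    intro n
    induction n using Nat.strong_induction_on with
    | _ n ih =>
      intro r hn hr
      rcases hμ r hr with ⟨j, hj, rfl⟩ | ⟨i, hi, hlt⟩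
      · exact relP_simple A hj
      · have hr' := A.hT.refl_lt i r hi hr
        have h1 := ih _ (hn ▸ hlt) _ rfl hr'
        obtain ⟨η, hη, hc⟩ := A.hB.ng_conj_xg hi hr'
        rw [A.hT.refl_refl i r hi hr] at hc
        exact relP_transport A.hB hη (fun t => (hc t).1) (fun t => (hc t).2) h1
  exact fun r hr => key _ r rfl hr

/-- the pair of root subgroups attached to the root `r` -/
def st2 (A : AllH D T W K) {r : ℕ} (hr : r < D.nroots) : St2 K (GL D.Idx K) where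
  x := A.hB.xg r
  y := A.hB.xg (D.neg r)
  x_add := A.hB.xg_add r
  y_add := A.hB.xg_add (D.neg r)
  relx := relP_all A r hr
  rely := by
    have h := relP_all A (D.neg r) (A.hT.neg_lt hr)
    unfold RelP Base.ng at h
    rw [A.hT.neg_neg hr] at h
    exact h

theorem exists_hom (hD : D ∈ [chevG2, chevB2, chevD4, chevF4, chevE6, chevE7, chevE8])
    (hB : Base D K) {r : ℕ} (hr : r < D.nroots) :
    ∃ φ : SpecialLinearGroup (Fin 2) K →* GL D.Idx K,
      (∀ t, φ (St2.slx t) = hB.xg r t) ∧ (∀ t, φ (St2.sly t) = hB.xg (D.neg r) t) := by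
  obtain ⟨T, W, A⟩ := exists_allH K hD
  exact St2G.exists_hom (st2 A hr) (fun t u ht hu => hg_mul hD A.hB r hr t u ht hu)

end Cfsg.Agent.Lib.Helper96.ChevSL2
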