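import Cfsg.Agent.Lib.Helper47.LocalSFT
import Cfsg.Agent.Lib.Helper58.SigC
import Cfsg.Agent.Lib.Helper31.KBalance1
import Cfsg.Agent.Lib.Helper9.PPrimeCoreOf

/-!
# The `k`-balanced signalizer functor (level induction on top of the local signalizer functor
theorem of helper47)
-/

set_option autoImplicit false
set_option linter.unusedSectionVars false
set_option linter.unusedVariables false
open Cfsg Subgroup

namespace Cfsg.Agent.Lib.Helper96.KBal

open Cfsg.Agent.Lib.Helper22 Cfsg.Agent.Lib.Helper47 Cfsg.Agent.Lib.Helper9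

variable {G : Type*} [Group G] [Finite G]

/-- `Θ(B)`: generated by the `Δ(D) ∩ C(B)`, `D ≤ A` of order `p ^ k`. -/
def Th (p k : ℕ) (A B : Subgroup G) : Subgroup G :=
  ⨆ D : {D : Subgroup G // D ≤ A ∧ Nat.card ↥D = p ^ k},
    signalizerDelta p (D : Subgroup G) ⊓ centralizer (B : Set G)

theorem Th_anti {p k : ℕ} {A B B' : Subgroup G} (h : B ≤ B') : Th p k A B' ≤ Th p k A B :=
  iSup_mono fun D => inf_le_inf_left _ (centralizer_le h)

theorem Th_le_centralizer {p k : ℕ} {A B : Subgroup G} :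
    Th p k A B ≤ centralizer (B : Set G) := iSup_le fun D => inf_le_right

theorem le_normalizer_iInf' {ι : Sort*} {f : ι → Subgroup G} {A : Subgroup G}
    (h : ∀ i, A ≤ normalizer (f i : Set G)) :
    A ≤ normalizer ((⨅ i, f i : Subgroup G) : Set G) := by
  rw [le_normalizer_iff]
  intro a ha x hx
  rw [mem_iInf] at hx ⊢
  intro i
  exact le_normalizer_iff.mp (h i) a ha x (hx i)

theorem elemAb_mono {p : ℕ} {A D : Subgroup G} (hA : IsElementaryAbelian p A) (h : D ≤ A) :
    IsElementaryAbelian p D :=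
  ⟨⟨⟨fun x y => Subtype.ext (elemAb_comm hA x (h x.2) y (h y.2))⟩⟩, fun a ha => hA.2 a (h ha)⟩

theorem centralizer_sup_zpowers (B : Subgroup G) (c : G) :
    centralizer ((B ⊔ zpowers c : Subgroup G) : Set G)
      = centralizer (B : Set G) ⊓ centralizer {c} := by
  have h : B ⊔ zpowers c = closure ((B : Set G) ∪ {c}) := by
    rw [Subgroup.closure_union, closure_eq, zpowers_eq_closure]
  rw [h, centralizer_closure]
  ext x
  simp only [mem_inf, mem_centralizer_iff, Set.mem_union, Set.mem_singleton_iff]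
  constructor
  · intro H
    exact ⟨fun y hy => H y (Or.inl hy), fun y hy => H y (Or.inr hy)⟩
  · rintro ⟨H1, H2⟩ y (hy | hy)
    · exact H1 y hy
    · exact H2 y hy

theorem core_normalized {p : ℕ} {A : Subgroup G} (hA : IsElementaryAbelian p A) {b : G}
    (hb : b ∈ A) : A ≤ normalizer (centralizerPPrimeCore p b : Set G) := by
  have h1 : A ≤ centralizer ({b} : Set G) := by
    intro a ha
    rw [mem_centralizer_singleton_iff]
    exact elemAb_comm hA a ha b hb
  exact h1.trans (le_normalizer_pPrimeCoreOf (p := p) (centralizer ({b} : Set G)))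

theorem core_not_dvd {p : ℕ} [Fact p.Prime] (b : G) :
    ¬ p ∣ Nat.card ↥(centralizerPPrimeCore p b) := by
  have h := card_pPrimeCoreOf_coprime (p := p) (centralizer ({b} : Set G))
  intro hd
  have hp : p.Prime := Fact.out
  exact hp.one_lt.ne' (Nat.eq_one_of_dvd_coprimes h hd dvd_rfl)

theorem delta_normalized {p : ℕ} {A D : Subgroup G} (hA : IsElementaryAbelian p A) (hD : D ≤ A) :
    A ≤ normalizer (signalizerDelta p D : Set G) :=
  le_normalizer_iInf' fun d => core_normalized hA (hD d.2.1)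

theorem le_normalizer_of_le {p : ℕ} {A B : Subgroup G} (hA : IsElementaryAbelian p A)
    (hB : B ≤ A) : A ≤ normalizer (B : Set G) := by
  rw [le_normalizer_iff]
  intro a ha b hb
  rw [elemAb_comm hA a ha b (hB hb), mul_inv_cancel_right]
  exact hb

theorem term_normalized {p : ℕ} {A B D : Subgroup G} (hA : IsElementaryAbelian p A) (hD : D ≤ A)
    (hB : B ≤ A) :
    A ≤ normalizer ((signalizerDelta p D ⊓ centralizer (B : Set G) : Subgroup G) : Set G) :=
  le_normalizer_inf_centralizer (delta_normalized hA hD) (le_normalizer_of_le hA hB)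

theorem Th_normalized {p k : ℕ} {A B : Subgroup G} (hA : IsElementaryAbelian p A) (hB : B ≤ A) :
    A ≤ normalizer (Th p k A B : Set G) :=
  le_normalizer_iSup' fun D => term_normalized hA D.2.1 hB

theorem term_le_core {p k : ℕ} [Fact p.Prime] (hbal : IsKBalanced p k G) {A B D : Subgroup G}
    (hA : IsElementaryAbelian p A) (hD : D ≤ A) (hDk : Nat.card ↥D = p ^ k) (hB : B ≤ A) {b : G}
    (hb : b ∈ B) (hb1 : b ≠ 1) :
    signalizerDelta p D ⊓ centralizer (B : Set G) ≤ centralizerPPrimeCore p b := by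
  have hsub : ({b} : Set G) ⊆ (B : Set G) := by simpa using hb
  refine le_trans (inf_le_inf_left _ (centralizer_le hsub)) ?_
  exact hbal D (elemAb_mono hA hD) hDk b (orderOf_eq_prime (hA.2 b (hB hb)) hb1)
    (fun a ha => elemAb_comm hA a (hD ha) b (hB hb))

theorem Th_le_core {p k : ℕ} [Fact p.Prime] (hbal : IsKBalanced p k G) {A B : Subgroup G}
    (hA : IsElementaryAbelian p A) (hB : B ≤ A) {b : G} (hb : b ∈ B) (hb1 : b ≠ 1) :
    Th p k A B ≤ centralizerPPrimeCore p b :=
  iSup_le fun D => term_le_core hbal hA D.2.1 D.2.2 hB hb hb1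

theorem sup_zpowers_mul {B : Subgroup G} {b : G} (hb : b ∈ B) (c : G) :
    B ⊔ zpowers (b * c) = B ⊔ zpowers c := by
  apply le_antisymm
  · refine sup_le le_sup_left (zpowers_le.2 ?_)
    exact mul_mem ((le_sup_left : B ≤ B ⊔ zpowers c) hb)
      ((le_sup_right : zpowers c ≤ B ⊔ zpowers c) (mem_zpowers c))
  · refine sup_le le_sup_left (zpowers_le.2 ?_)
    have h : b⁻¹ * (b * c) = c := by group
    have h2 := mul_mem ((le_sup_left : B ≤ B ⊔ zpowers (b * c)) (inv_mem hb))
      ((le_sup_right : zpowers (b * c) ≤ B ⊔ zpowers (b * c)) (mem_zpowers _))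
    rwa [h] at h2

theorem balance_aux (hQ : QuotSinglePrime G) (p k : ℕ) [Fact p.Prime] (hk : 1 ≤ k)
    (hbal : IsKBalanced p k G) (A : Subgroup G) (hA : IsElementaryAbelian p A)
    (hAk : p ^ (k + 2) ≤ Nat.card ↥A)
    (hsolv : ∀ a ∈ A, a ≠ 1 → Group.IsSolvable ↥(centralizerPPrimeCore p a)) :
    ∀ (n : ℕ) (B : Subgroup G), Nat.card ↥A - Nat.card ↥B = n → B ≤ A → B ≠ ⊥ →
      ∀ c ∈ A, Th p k A B ⊓ centralizer {c} ≤ Th p k A (B ⊔ zpowers c) := by
  have hp : p.Prime := Fact.out
  intro n
  induction n using Nat.strong_induction_on with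
  | _ n ih =>
  intro B hn hB hB1 c hc
  obtain ⟨b0, hb0, hb01⟩ : ∃ b0 ∈ B, b0 ≠ 1 := by
    by_contra hcon
    push Not at hcon
    exact hB1 ((eq_bot_iff_forall B).mpr hcon)
  have hBp : IsPGroup p ↥B := elemAb_isPGroup (elemAb_mono hA hB)
  by_cases hBk : p ^ k ≤ Nat.card ↥B
  · -- large `B`
    obtain ⟨K, hK⟩ := Sylow.exists_subgroup_card_pow_prime_of_le_card hp hBp hBk
    have hD0B : K.map B.subtype ≤ B := map_subtype_le _
    have hD0k : Nat.card ↥(K.map B.subtype) = p ^ k := by
      rw [Subgroup.card_map_of_injective B.subtype_injective, hK]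
    have h1 : Th p k A B ≤ signalizerDelta p (K.map B.subtype) :=
      le_iInf fun d => Th_le_core hbal hA hB (hD0B d.2.1) d.2.2
    have h2 : Th p k A B ⊓ centralizer {c} ≤
        signalizerDelta p (K.map B.subtype) ⊓ centralizer ((B ⊔ zpowers c : Subgroup G) : Set G) := by
      rw [centralizer_sup_zpowers]
      exact le_inf (inf_le_left.trans h1) (le_inf (inf_le_left.trans Th_le_centralizer) inf_le_right)
    exact h2.trans (le_iSup (fun D : {D : Subgroup G // D ≤ A ∧ Nat.card ↥D = p ^ k} =>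
      signalizerDelta p (D : Subgroup G) ⊓ centralizer ((B ⊔ zpowers c : Subgroup G) : Set G))
      ⟨K.map B.subtype, hD0B.trans hB, hD0k⟩)
  · -- small `B`
    obtain ⟨A1, hA1, hBA1, hsup, hcard⟩ :=
      Cfsg.Agent.Lib.Helper58.Sig.exists_complement_elemAb p A B hA hB
    have hA1e : IsElementaryAbelian p A1 := elemAb_mono hA hA1
    have hA13 : p ^ 3 ≤ Nat.card ↥A1 := by
      obtain ⟨j, hj⟩ := IsPGroup.iff_card.1 hBp
      rw [hj] at hBk hcard
      have hjk : j < k := by
        by_contra hcon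
        exact hBk (Nat.pow_le_pow_right hp.pos (not_lt.1 hcon))
      have h1 : p ^ j * p ^ (k + 2 - j) ≤ p ^ j * Nat.card ↥A1 := by
        rw [← pow_add, hcard]
        have : j + (k + 2 - j) = k + 2 := by omega
        rw [this]
        exact hAk
      have h2 := Nat.le_of_mul_le_mul_left h1 (pow_pos hp.pos j)
      exact (Nat.pow_le_pow_right hp.pos (by omega)).trans h2
    have hsupA : ∀ c ∈ A, B ⊔ zpowers c ≤ A := fun c hc => sup_le hB (zpowers_le.2 hc)
    have hb0sup : ∀ c, b0 ∈ B ⊔ zpowers c := fun c => (le_sup_left : B ≤ B ⊔ zpowers c) hb0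
    have hφX : ∀ c ∈ A1, c ≠ 1 → Th p k A (B ⊔ zpowers c) ≤ centralizerPPrimeCore p b0 :=
      fun c hc _ => Th_le_core hbal hA (hsupA c (hA1 hc)) (hb0sup c) hb01
    have hXs := hsolv b0 (hB hb0) hb01
    have hφ : IsSolvableSignalizerFunctor p A1 (fun c => Th p k A (B ⊔ zpowers c)) := by
      refine ⟨⟨?_, ?_, ?_, ?_⟩, ?_⟩
      · intro c hc hc1
        refine Th_le_centralizer.trans ?_
        rw [centralizer_sup_zpowers]
        exact inf_le_right
      · intro c hc hc1
        exact not_dvd_card_of_le (hφX c hc hc1) (core_not_dvd b0)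
      · intro c hc hc1 b hb x hx
        exact le_normalizer_iff.mp (Th_normalized hA (hsupA c (hA1 hc))) b (hA1 hb) x hx
      · intro c hc hc1 c' hc' hc'1
        have hlt : Nat.card ↥B < Nat.card ↥(B ⊔ zpowers c) := by
          by_contra hcon
          have h1 := Subgroup.eq_of_le_of_card_ge (le_sup_left : B ≤ B ⊔ zpowers c) (not_lt.1 hcon)
          have h2 : c ∈ B := by
            rw [h1]
            exact (le_sup_right : zpowers c ≤ B ⊔ zpowers c) (mem_zpowers c)
          have h3 : c ∈ B ⊓ A1 := mem_inf.2 ⟨h2, hc⟩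
          rw [hBA1, mem_bot] at h3
          exact hc1 h3
        have hle : Nat.card ↥(B ⊔ zpowers c) ≤ Nat.card ↥A :=
          Subgroup.card_le_of_le (hsupA c (hA1 hc))
        have h4 := ih (Nat.card ↥A - Nat.card ↥(B ⊔ zpowers c)) (by omega) (B ⊔ zpowers c) rfl
          (hsupA c (hA1 hc)) (fun h => hb01 (by have := hb0sup c; rwa [h, mem_bot] at this))
          c' (hA1 hc')
        refine h4.trans (Th_anti ?_)
        exact sup_le (le_sup_left.trans le_sup_left) le_sup_right
      · intro c hc hc1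
        exact Group.isSolvable_of_isSolvable_injective (f := inclusion (hφX c hc hc1))
          (inclusion_injective _)
    have hY := local_sft hQ p A1 hA1e hA13 _ hφ (centralizerPPrimeCore p b0) hXs (core_not_dvd b0)
      (hA1.trans (core_normalized hA (hB hb0))) hφX
    have hThY : Th p k A B ≤ signalizerClosure A1 (fun c => Th p k A (B ⊔ zpowers c)) := by
      refine iSup_le fun D => ?_
      apply le_of_forall_centralizer_le (p := p) A1 _ _ (elemAb_comm hA1e) hA1e.2
        ((Nat.pow_le_pow_right hp.pos (by omega)).trans hA13)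
        (not_dvd_card_of_le (term_le_core hbal hA D.2.1 D.2.2 hB hb0 hb01) (core_not_dvd b0))
        (hA1.trans (term_normalized hA D.2.1 hB))
      intro c hc hc1
      have h1 : signalizerDelta p (D : Subgroup G) ⊓ centralizer (B : Set G) ⊓ centralizer {c}
          ≤ Th p k A (B ⊔ zpowers c) := by
        rw [inf_assoc, ← centralizer_sup_zpowers]
        exact le_iSup (fun D : {D : Subgroup G // D ≤ A ∧ Nat.card ↥D = p ^ k} =>
          signalizerDelta p (D : Subgroup G) ⊓ centralizer ((B ⊔ zpowers c : Subgroup G) : Set G)) D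
      exact h1.trans (le_iSup (fun a : {a : G // a ∈ A1 ∧ a ≠ 1} =>
        Th p k A (B ⊔ zpowers (a : G))) ⟨c, hc, hc1⟩)
    have hmain : ∀ c ∈ A1, c ≠ 1 → Th p k A B ⊓ centralizer {c} ≤ Th p k A (B ⊔ zpowers c) :=
      fun c hc hc1 => (inf_le_inf_right _ hThY).trans (hY.2.2.2 c hc hc1)
    -- general `c`
    have hc' : c ∈ B ⊔ A1 := by rw [hsup]; exact hc
    obtain ⟨b, hb, c1, hc1, rfl⟩ := Cfsg.Agent.Lib.Helper58.Sig.exists_mul_of_mem_sup_comm
      (fun x hx y hy => elemAb_comm hA x (hB hx) y (hA1 hy)) hc'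
    rw [sup_zpowers_mul hb]
    by_cases h1 : c1 = 1
    · rw [h1, zpowers_one_eq_bot, sup_bot_eq]
      exact inf_le_left
    · refine le_trans ?_ (hmain c1 hc1 h1)
      have h2 : Th p k A B ⊓ centralizer {b * c1} ≤
          centralizer ((B ⊔ zpowers (b * c1) : Subgroup G) : Set G) := by
        rw [centralizer_sup_zpowers]
        exact le_inf (inf_le_left.trans Th_le_centralizer) inf_le_right
      rw [sup_zpowers_mul hb, centralizer_sup_zpowers] at h2
      exact le_inf inf_le_left (h2.trans inf_le_right)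

theorem main (hQ : QuotSinglePrime G) (p k : ℕ) [Fact p.Prime] (hk : 1 ≤ k)
    (hbal : IsKBalanced p k G) (A : Subgroup G) (hA : IsElementaryAbelian p A)
    (hAk : p ^ (k + 2) ≤ Nat.card ↥A)
    (hsolv : ∀ a ∈ A, a ≠ 1 → Group.IsSolvable ↥(centralizerPPrimeCore p a)) :
    IsSignalizerFunctor p A (fun a => ⨆ D : {D : Subgroup G // D ≤ A ∧ Nat.card ↥D = p ^ k},
      signalizerDelta p (D : Subgroup G) ⊓ centralizer {a}) := by
  have hfun : (fun a : G => ⨆ D : {D : Subgroup G // D ≤ A ∧ Nat.card ↥D = p ^ k},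
      signalizerDelta p (D : Subgroup G) ⊓ centralizer {a}) = fun a => Th p k A (zpowers a) := by
    funext a
    unfold Th
    rw [centralizer_zpowers]
  rw [hfun]
  have hz : ∀ a ∈ A, zpowers a ≤ A := fun a ha => zpowers_le.2 ha
  refine ⟨?_, ?_, ?_, ?_⟩
  · intro a ha ha1
    have := Th_le_centralizer (p := p) (k := k) (A := A) (B := zpowers a)
    rwa [centralizer_zpowers] at this
  · intro a ha ha1
    exact not_dvd_card_of_le (Th_le_core hbal hA (hz a ha) (mem_zpowers a) ha1) (core_not_dvd a)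
  · intro a ha ha1 b hb x hx
    exact le_normalizer_iff.mp (Th_normalized hA (hz a ha)) b hb x hx
  · intro a ha ha1 b hb hb1
    have h := balance_aux hQ p k hk hbal A hA hAk hsolv _ (zpowers a) rfl (hz a ha)
      (fun h => ha1 (zpowers_eq_bot.1 h)) b hb
    exact h.trans (Th_anti le_sup_right)

end Cfsg.Agent.Lib.Helper96.KBal
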