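import Mathlib

set_option autoImplicit false

/-! Arithmetic for the exceptional near-fields (Passman, Permutation groups, §20). -/

namespace Cfsg.Agent.Lib.Helper96

theorem nf_no_factor {R a e c M Q : ℕ} (hRa : Nat.Coprime R a) (hRQ : Nat.Coprime R Q)
    (hc : c ∣ Q) (he : e ∣ M) (hRM : ¬ R ∣ M) : ¬ R ∣ a * e * c := by
  intro h
  have h1 : Nat.Coprime R c := Nat.Coprime.coprime_dvd_right hc hRQ
  have h2 : R ∣ a * e := h1.dvd_of_dvd_mul_right h
  have h3 : R ∣ e := hRa.dvd_of_dvd_mul_left h2
  exact hRM (h3.trans he)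

theorem nf_kill {R a e c M Q X : ℕ} (h : X = a * e * c) (hc : c ∣ Q) (he : e ∣ M) (hRX : R ∣ X)
    (hRa : Nat.Coprime R a) (hRQ : Nat.Coprime R Q) (hRM : ¬ R ∣ M) : False :=
  nf_no_factor hRa hRQ hc he hRM (h ▸ hRX)

theorem nf_prod_le {p n k a e c M : ℕ} (hp : 2 ≤ p) (hk : 1 ≤ k)
    (h : p ^ n - 1 = a * e * c) (ha : a ≤ k) (he : e ∣ M) (hM : 0 < M) (hc : c ∣ p ^ k - 1) :
    p ^ n - 1 ≤ k * M * (p ^ k - 1) := by
  have hQ : 2 ≤ p ^ k := by
    calc 2 ≤ p := hp
      _ = p ^ 1 := (pow_one p).symm
      _ ≤ p ^ k := Nat.pow_le_pow_right (by omega) hk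
  rw [h]
  exact Nat.mul_le_mul (Nat.mul_le_mul ha (Nat.le_of_dvd hM he)) (Nat.le_of_dvd (by omega) hc)

theorem nf_arith_aux {p n k a e c M : ℕ} (hp : 2 ≤ p) (hk : 1 ≤ k) (h2k : 2 * k ≤ n)
    (h : p ^ n - 1 = a * e * c) (ha : a ≤ k) (he : e ∣ M) (hM : 0 < M) (hc : c ∣ p ^ k - 1) :
    p ^ k + 1 ≤ k * M := by
  have h1 := nf_prod_le hp hk h ha he hM hc
  have hQ : 2 ≤ p ^ k := by
    calc 2 ≤ p := hp
      _ = p ^ 1 := (pow_one p).symm
      _ ≤ p ^ k := Nat.pow_le_pow_right (by omega) hk
  have h2 : p ^ (2 * k) ≤ p ^ n := Nat.pow_le_pow_right (by omega) h2k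
  have h3 : p ^ (2 * k) = p ^ k * p ^ k := by rw [two_mul, pow_add]
  obtain ⟨Q, hQ'⟩ : ∃ Q, p ^ k = Q + 2 := ⟨p ^ k - 2, by omega⟩
  rw [h3, hQ'] at h2
  rw [hQ'] at h1 ⊢
  have h4 : Q + 2 - 1 = Q + 1 := by omega
  rw [h4] at h1
  have h5 : (Q + 3) * (Q + 1) ≤ k * M * (Q + 1) := by
    have : (Q + 2) * (Q + 2) = (Q + 3) * (Q + 1) + 1 := by ring
    omega
  exact Nat.le_of_mul_le_mul_right h5 (by omega)

theorem nf_lt_of_pow {p n B X : ℕ} (hp : 0 < p) (h : p ^ n - 1 ≤ X) (hB : X + 1 < p ^ B) :
    n < B := by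
  by_contra hcon
  push Not at hcon
  have := Nat.pow_le_pow_right hp hcon
  omega

theorem nf_k_one {p n e c M : ℕ} (hp : 2 ≤ p) (hn : 3 ≤ n) (h : p ^ n - 1 = e * c) (he : e ∣ M)
    (hM : 0 < M) (hc : c ∣ p - 1) : p ^ 2 + p + 1 ≤ M := by
  have h1 : p ^ 3 ≤ p ^ n := Nat.pow_le_pow_right (by omega) hn
  have h2 : e * c ≤ M * (p - 1) :=
    Nat.mul_le_mul (Nat.le_of_dvd hM he) (Nat.le_of_dvd (by omega) hc)
  obtain ⟨t, rfl⟩ : ∃ t, p = t + 1 := ⟨p - 1, by omega⟩
  have h3 : t + 1 - 1 = t := by omega
  rw [h3] at h2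
  have h4 : (t + 1) ^ 3 = ((t + 1) ^ 2 + (t + 1) + 1) * t + 1 := by ring
  have h5 : ((t + 1) ^ 2 + (t + 1) + 1) * t ≤ M * t := by omega
  exact Nat.le_of_mul_le_mul_right h5 (by omega)

theorem nf_three_pow (k : ℕ) (hk : 5 ≤ k) : k * 24 < 3 ^ k := by
  induction k, hk using Nat.le_induction with
  | base => norm_num
  | succ m hm ih => rw [pow_succ]; omega

theorem nf_seven_pow (k : ℕ) (hk : 4 ≤ k) : k * 120 < 7 ^ k := by
  induction k, hk using Nat.le_induction with
  | base => norm_num
  | succ m hm ih => rw [pow_succ]; omega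

theorem nf_arith24 {p n k a e c : ℕ} (hp3 : 3 ≤ p) (hodd : ¬ 2 ∣ p) (hk : 1 ≤ k)
    (h2k : 2 * k ≤ n) (h : p ^ n - 1 = a * e * c) (ha0 : 0 < a) (ha : a ≤ k) (he : e ∣ 24)
    (hc : c ∣ p ^ k - 1) : k = 1 ∧ n = 2 := by
  have hb := nf_arith_aux (by omega) hk h2k h ha he (by norm_num) hc
  have hn := nf_prod_le (by omega) hk h ha he (by norm_num) hc
  have hk4 : k ≤ 4 := by
    by_contra hcon
    have h1 := nf_three_pow k (by omega)
    have h2 : 3 ^ k ≤ p ^ k := Nat.pow_le_pow_left hp3 k
    omega
  interval_cases k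
  · refine ⟨rfl, ?_⟩
    by_contra hn2
    have ha1 : a = 1 := by omega
    subst ha1
    rw [one_mul] at h
    rw [pow_one] at hc
    have h1 := nf_k_one (by omega) (by omega) h he (by norm_num) hc
    have hp4 : p ≤ 4 := by
      by_contra hcon
      have : 5 * 5 ≤ p * p := Nat.mul_le_mul (by omega) (by omega)
      rw [sq] at h1
      omega
    interval_cases p
    · have hn4 : n < 4 := nf_lt_of_pow (by norm_num) hn (by norm_num)
      have hn3 : n = 3 := by omega
      subst hn3
      have := nf_no_factor (R := 13) (a := 1) (by norm_num) (by norm_num) hc he (by norm_num)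
      apply this
      rw [one_mul, ← h]
      norm_num
    · exact absurd (by norm_num) hodd
  · exfalso
    have hp6 : p ≤ 6 := by
      by_contra hcon
      have : 7 * 7 ≤ p * p := Nat.mul_le_mul (by omega) (by omega)
      rw [sq] at hb
      omega
    interval_cases p
    · have hn4 : n < 6 := nf_lt_of_pow (by norm_num) hn (by norm_num)
      interval_cases n
      · interval_cases a
        · exact nf_kill (R := 5) h hc he (by norm_num) (by norm_num) (by norm_num) (by norm_num)
        · exact nf_kill (R := 5) h hc he (by norm_num) (by norm_num) (by norm_num) (by norm_num)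
      · interval_cases a
        · exact nf_kill (R := 11) h hc he (by norm_num) (by norm_num) (by norm_num) (by norm_num)
        · exact nf_kill (R := 11) h hc he (by norm_num) (by norm_num) (by norm_num) (by norm_num)
    · exact absurd (by norm_num) hodd
    · have hn4 : n < 5 := nf_lt_of_pow (by norm_num) hn (by norm_num)
      interval_cases n
      interval_cases a
      · exact nf_kill (R := 13) h hc he (by norm_num) (by norm_num) (by norm_num) (by norm_num)
      · exact nf_kill (R := 13) h hc he (by norm_num) (by norm_num) (by norm_num) (by norm_num)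
    · exact absurd (by norm_num) hodd
  · exfalso
    have hp6 : p ≤ 4 := by
      by_contra hcon
      have : 5 ^ 3 ≤ p ^ 3 := Nat.pow_le_pow_left (by omega) 3
      omega
    interval_cases p
    · have hn4 : n < 7 := nf_lt_of_pow (by norm_num) hn (by norm_num)
      interval_cases n
      interval_cases a
      · exact nf_kill (R := 7) h hc he (by norm_num) (by norm_num) (by norm_num) (by norm_num)
      · exact nf_kill (R := 7) h hc he (by norm_num) (by norm_num) (by norm_num) (by norm_num)
      · exact nf_kill (R := 7) h hc he (by norm_num) (by norm_num) (by norm_num) (by norm_num)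
    · exact absurd (by norm_num) hodd
  · exfalso
    have hp6 : p ≤ 3 := by
      by_contra hcon
      have : 4 ^ 4 ≤ p ^ 4 := Nat.pow_le_pow_left (by omega) 4
      omega
    interval_cases p
    have hn4 : n < 9 := nf_lt_of_pow (by norm_num) hn (by norm_num)
    interval_cases n
    interval_cases a
    · exact nf_kill (R := 41) h hc he (by norm_num) (by norm_num) (by norm_num) (by norm_num)
    · exact nf_kill (R := 41) h hc he (by norm_num) (by norm_num) (by norm_num) (by norm_num)
    · exact nf_kill (R := 41) h hc he (by norm_num) (by norm_num) (by norm_num) (by norm_num)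
    · exact nf_kill (R := 41) h hc he (by norm_num) (by norm_num) (by norm_num) (by norm_num)

theorem nf_arith120 {p n k a e c : ℕ} (hp7 : 7 ≤ p) (h2 : ¬ 2 ∣ p) (h3 : ¬ 3 ∣ p) (h5 : ¬ 5 ∣ p)
    (hk : 1 ≤ k)
    (h2k : 2 * k ≤ n) (h : p ^ n - 1 = a * e * c) (ha0 : 0 < a) (ha : a ≤ k) (he : e ∣ 120)
    (hc : c ∣ p ^ k - 1) : k = 1 ∧ n = 2 := by
  have hb := nf_arith_aux (by omega) hk h2k h ha he (by norm_num) hc
  have hn := nf_prod_le (by omega) hk h ha he (by norm_num) hc
  have hk4 : k ≤ 3 := by
    by_contra hcon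
    have h1 := nf_seven_pow k (by omega)
    have h2 : 7 ^ k ≤ p ^ k := Nat.pow_le_pow_left hp7 k
    omega
  interval_cases k
  · refine ⟨rfl, ?_⟩
    by_contra hn2
    have ha1 : a = 1 := by omega
    subst ha1
    rw [one_mul] at h
    rw [pow_one] at hc
    have h1 := nf_k_one (by omega) (by omega) h he (by norm_num) hc
    have hp4 : p ≤ 10 := by
      by_contra hcon
      have : 11 * 11 ≤ p * p := Nat.mul_le_mul (by omega) (by omega)
      rw [sq] at h1
      omega
    interval_cases p
    · have hn4 : n < 4 := nf_lt_of_pow (by norm_num) hn (by norm_num)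
      have hn3 : n = 3 := by omega
      subst hn3
      have := nf_no_factor (R := 19) (a := 1) (by norm_num) (by norm_num) hc he (by norm_num)
      apply this
      rw [one_mul, ← h]
      norm_num
    · exact absurd (by norm_num) h2
    · exact absurd (by norm_num) h3
    · exact absurd (by norm_num) h2
  · exfalso
    have hp6 : p ≤ 15 := by
      by_contra hcon
      have : 16 * 16 ≤ p * p := Nat.mul_le_mul (by omega) (by omega)
      rw [sq] at hb
      omega
    interval_cases p
    · have hn4 : n < 5 := nf_lt_of_pow (by norm_num) hn (by norm_num)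
      interval_cases n
      interval_cases a
      · exact nf_kill (R := 25) h hc he (by norm_num) (by norm_num) (by norm_num) (by norm_num)
      · exact nf_kill (R := 25) h hc he (by norm_num) (by norm_num) (by norm_num) (by norm_num)
    · exact absurd (by norm_num) h2
    · exact absurd (by norm_num) h3
    · exact absurd (by norm_num) h2
    · have hn4 : n < 5 := nf_lt_of_pow (by norm_num) hn (by norm_num)
      interval_cases n
      interval_cases a
      · exact nf_kill (R := 61) h hc he (by norm_num) (by norm_num) (by norm_num) (by norm_num)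
      · exact nf_kill (R := 61) h hc he (by norm_num) (by norm_num) (by norm_num) (by norm_num)
    · exact absurd (by norm_num) h2
    · have hn4 : n < 5 := nf_lt_of_pow (by norm_num) hn (by norm_num)
      interval_cases n
      interval_cases a
      · exact nf_kill (R := 17) h hc he (by norm_num) (by norm_num) (by norm_num) (by norm_num)
      · exact nf_kill (R := 17) h hc he (by norm_num) (by norm_num) (by norm_num) (by norm_num)
    · exact absurd (by norm_num) h2
    · exact absurd (by norm_num) h3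
  · exfalso
    have hp6 : p ≤ 7 := by
      by_contra hcon
      have : 8 ^ 3 ≤ p ^ 3 := Nat.pow_le_pow_left (by omega) 3
      omega
    interval_cases p
    have hn4 : n < 7 := nf_lt_of_pow (by norm_num) hn (by norm_num)
    interval_cases n
    interval_cases a
    · exact nf_kill (R := 43) h hc he (by norm_num) (by norm_num) (by norm_num) (by norm_num)
    · exact nf_kill (R := 43) h hc he (by norm_num) (by norm_num) (by norm_num) (by norm_num)
    · exact nf_kill (R := 43) h hc he (by norm_num) (by norm_num) (by norm_num) (by norm_num)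

/-- with `k = 1`, `n = 2`. -/
theorem nf_succ_dvd {p e c M : ℕ} (hp : 2 ≤ p) (h : p ^ 2 - 1 = e * c) (he : e ∣ M)
    (hc : c ∣ p - 1) : p + 1 ∣ M := by
  obtain ⟨d, hd⟩ := hc
  have hc0 : 0 < c := by
    rcases Nat.eq_zero_or_pos c with h0 | h0
    · rw [h0, zero_mul] at hd; omega
    · exact h0
  have h1 : p ^ 2 - 1 = (p + 1) * (p - 1) := by
    obtain ⟨t, rfl⟩ : ∃ t, p = t + 1 := ⟨p - 1, by omega⟩
    have : (t + 1) ^ 2 = (t + 1 + 1) * t + 1 := by ring
    rw [this]
    simp
  rw [h1, hd] at h
  have h2 : ((p + 1) * d) * c = e * c := by rw [← h]; ring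
  have h3 := Nat.eq_of_mul_eq_mul_right hc0 h2
  exact (Dvd.intro _ h3).trans he

end Cfsg.Agent.Lib.Helper96
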