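import Mathlib

set_option autoImplicit false
set_option linter.style.haveILetI false

/-! A linear group regular on the non-zero vectors: the enveloping algebra of a normal abelian
subgroup is a field, and the index of the centraliser is at most its degree. -/

namespace Cfsg.Agent.Lib.Helper96

section
variable {p : ℕ} [Fact p.Prime] {V : Type*} [AddCommGroup V] [Module (ZMod p) V] [Finite V]

open scoped IsMulCommutative in
theorem nf_index_centralizer_le (H : Subgroup (V ≃ₗ[ZMod p] V))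
    (hreg : ∀ v w : V, v ≠ 0 → w ≠ 0 → ∃! h : H, (h : V ≃ₗ[ZMod p] V) v = w)
    (A : Subgroup H) (hAn : A.Normal) (hAc : IsMulCommutative A) (hcyc : IsCyclic A)
    (W : Submodule (ZMod p) V) (hWne : W ≠ ⊥)
    (hWinv : ∀ a ∈ A, ∀ v ∈ W, ((a : H) : V ≃ₗ[ZMod p] V) v ∈ W)
    (hWmin : ∀ W' : Submodule (ZMod p) V, W' ≤ W →
      (∀ a ∈ A, ∀ v ∈ W', ((a : H) : V ≃ₗ[ZMod p] V) v ∈ W') → W' = ⊥ ∨ W' = W) :
    (Subgroup.centralizer (A : Set H)).index ≤ Module.finrank (ZMod p) W := by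
  classical
  haveI : Finite (V ≃ₗ[ZMod p] V) :=
    Finite.of_injective (fun e : V ≃ₗ[ZMod p] V => (e : V → V)) DFunLike.coe_injective
  let r : H → Module.End (ZMod p) V := fun h => ((h : V ≃ₗ[ZMod p] V) : V →ₗ[ZMod p] V)
  have hr : ∀ h v, r h v = (h : V ≃ₗ[ZMod p] V) v := fun _ _ => rfl
  have hrm : ∀ a b, r (a * b) = r a * r b := fun a b => by ext v; rfl
  have hrinj : Function.Injective r := by
    intro a b hab
    apply Subtype.ext
    apply LinearEquiv.toLinearMap_injective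
    exact hab
  let S : Set (Module.End (ZMod p) V) := r '' (A : Set H)
  have hc : ∀ x ∈ S, ∀ y ∈ S, x * y = y * x := by
    rintro _ ⟨a, ha, rfl⟩ _ ⟨b, hb, rfl⟩
    rw [← hrm, ← hrm]
    congr 1
    exact congrArg Subtype.val (hAc.is_comm.comm (⟨a, ha⟩ : A) ⟨b, hb⟩)
  let E := Algebra.adjoin (ZMod p) S
  haveI : IsMulCommutative E := Algebra.isMulCommutative_adjoin (ZMod p) hc
  -- invariance
  let Inv : Submodule (ZMod p) V → Prop := fun U => ∀ a ∈ A, ∀ v ∈ U, r a v ∈ U
  have hEinv : ∀ x ∈ E, ∀ U, Inv U → ∀ v ∈ U, x v ∈ U := by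
    intro x hx U hU
    induction hx using Algebra.adjoin_induction with
    | mem x hx => obtain ⟨a, ha, rfl⟩ := hx; exact hU a ha
    | algebraMap c =>
      intro v hv
      simpa [Algebra.algebraMap_eq_smul_one] using U.smul_mem c hv
    | add x y _ _ hx hy => intro v hv; exact U.add_mem (hx v hv) (hy v hv)
    | mul x y _ _ hx hy => intro v hv; exact hx _ (hy v hv)
  have hEcomm : ∀ x ∈ E, ∀ a ∈ A, x * r a = r a * x := by
    intro x hx a ha
    have := Algebra.commute_of_mem_adjoin_of_forall_mem_commute (a := r a) hx (by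
      rintro _ ⟨b, hb, rfl⟩
      exact hc _ ⟨a, ha, rfl⟩ _ ⟨b, hb, rfl⟩)
    exact this.eq.symm
  obtain ⟨w, hwW, hw0⟩ := (Submodule.ne_bot_iff W).mp hWne
  -- every non-zero vector lies in an irreducible invariant subspace
  have hirr : ∀ v : V, v ≠ 0 → ∃ U : Submodule (ZMod p) V, v ∈ U ∧ Inv U ∧
      ∀ U' : Submodule (ZMod p) V, U' ≤ U → Inv U' → U' = ⊥ ∨ U' = U := by
    intro v hv
    obtain ⟨h, hh, _⟩ := hreg w v hw0 hv
    have hconj : ∀ a ∈ A, ∀ u : V, r a ((h : V ≃ₗ[ZMod p] V) u)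
        = (h : V ≃ₗ[ZMod p] V) (r (h⁻¹ * a * h) u) := by
      intro a ha u
      have h3 : h * (h⁻¹ * a * h) = a * h := by group
      have : (h : V ≃ₗ[ZMod p] V) (r (h⁻¹ * a * h) u) = r (h * (h⁻¹ * a * h)) u := rfl
      rw [this, h3]
      rfl
    have hmemA : ∀ a ∈ A, h⁻¹ * a * h ∈ A := by
      intro a ha
      have := hAn.conj_mem a ha h⁻¹
      simpa using this
    have hmemA' : ∀ a ∈ A, h * a * h⁻¹ ∈ A := fun a ha => hAn.conj_mem a ha h
    refine ⟨W.map ((h : V ≃ₗ[ZMod p] V) : V →ₗ[ZMod p] V), ⟨w, hwW, hh⟩, ?_, ?_⟩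
    · rintro a ha _ ⟨u, hu, rfl⟩
      refine ⟨r (h⁻¹ * a * h) u, hWinv _ (hmemA a ha) u hu, ?_⟩
      exact (hconj a ha u).symm
    · intro U' hU' hU'inv
      let W' : Submodule (ZMod p) V := U'.comap ((h : V ≃ₗ[ZMod p] V) : V →ₗ[ZMod p] V)
      have hW'le : W' ≤ W := by
        intro u hu
        obtain ⟨u', hu', hu'e⟩ := hU' hu
        have : u' = u := (h : V ≃ₗ[ZMod p] V).injective hu'e
        rwa [← this]
      have hW'inv : ∀ a ∈ A, ∀ v ∈ W', ((a : H) : V ≃ₗ[ZMod p] V) v ∈ W' := by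
        intro a ha u hu
        change (h : V ≃ₗ[ZMod p] V) (r a u) ∈ U'
        have h4 := hU'inv _ (hmemA' a ha) _ hu
        have h5 := hconj _ (hmemA' a ha) u
        have h6 : h⁻¹ * (h * a * h⁻¹) * h = a := by group
        rw [h6] at h5
        rw [← h5]
        exact h4
      have hmap : W'.map ((h : V ≃ₗ[ZMod p] V) : V →ₗ[ZMod p] V) = U' :=
        Submodule.map_comap_eq_of_surjective (h : V ≃ₗ[ZMod p] V).surjective U'
      rcases hWmin W' hW'le hW'inv with h1 | h1
      · left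
        rw [← hmap, h1, Submodule.map_bot]
      · right
        rw [← hmap, h1]
  -- the key lemma
  have hkey : ∀ x ∈ E, ∀ v : V, v ≠ 0 → x v = 0 → x = 0 := by
    intro x hx v hv hxv
    by_contra hx0
    obtain ⟨u, hu⟩ : ∃ u, x u ≠ 0 := by
      by_contra hcon
      push Not at hcon
      exact hx0 (LinearMap.ext hcon)
    have hKinv : Inv (LinearMap.ker x) := by
      intro a ha y hy
      rw [LinearMap.mem_ker] at hy ⊢
      have h1 : x (r a y) = (x * r a) y := rfl
      rw [h1, hEcomm x hx a ha]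
      change r a (x y) = 0
      rw [hy, map_zero]
    have hu0 : u ≠ 0 := by
      rintro rfl
      exact hu (map_zero x)
    have huv0 : u + v ≠ 0 := by
      intro h
      apply hu
      have : x (u + v) = 0 := by rw [h, map_zero]
      rwa [map_add, hxv, add_zero] at this
    obtain ⟨U1, hU1m, hU1inv, hU1min⟩ := hirr u hu0
    obtain ⟨U2, hU2m, hU2inv, hU2min⟩ := hirr (u + v) huv0
    have hinfinv : Inv (U1 ⊓ U2) := fun a ha y hy =>
      ⟨hU1inv a ha y hy.1, hU2inv a ha y hy.2⟩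
    have hxu : x u ∈ U1 ⊓ U2 := by
      refine ⟨hEinv x hx U1 hU1inv u hU1m, ?_⟩
      have := hEinv x hx U2 hU2inv _ hU2m
      rwa [map_add, hxv, add_zero] at this
    have hne : U1 ⊓ U2 ≠ ⊥ := fun h => hu (by rw [h] at hxu; exact (Submodule.mem_bot _).mp hxu)
    have h1 : U1 ⊓ U2 = U1 := (hU1min _ inf_le_left hinfinv).resolve_left hne
    have h2 : U1 ⊓ U2 = U2 := (hU2min _ inf_le_right hinfinv).resolve_left hne
    have h12 : U1 = U2 := h1.symm.trans h2
    have hvU : v ∈ U1 := by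
      have : u + v ∈ U1 := h12 ▸ hU2m
      have h3 := U1.sub_mem this hU1m
      simpa using h3
    have hinv2 : Inv (U1 ⊓ LinearMap.ker x) := fun a ha y hy =>
      ⟨hU1inv a ha y hy.1, hKinv a ha y hy.2⟩
    have hne2 : U1 ⊓ LinearMap.ker x ≠ ⊥ := by
      intro h
      have : v ∈ U1 ⊓ LinearMap.ker x := ⟨hvU, hxv⟩
      rw [h] at this
      exact hv ((Submodule.mem_bot _).mp this)
    have h4 : U1 ⊓ LinearMap.ker x = U1 := (hU1min _ inf_le_left hinv2).resolve_left hne2
    have : u ∈ U1 ⊓ LinearMap.ker x := by rw [h4]; exact hU1m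
    exact hu this.2
  haveI : Nontrivial E := by
    refine ⟨⟨1, 0, ?_⟩⟩
    intro h
    have h2 : ((1 : E) : Module.End (ZMod p) V) w = ((0 : E) : Module.End (ZMod p) V) w := by
      rw [h]
    apply hw0
    simpa using h2
  haveI : NoZeroDivisors E := by
    refine ⟨?_⟩
    intro a b hab
    by_cases hb : b = 0
    · exact Or.inr hb
    · left
      obtain ⟨u, hu⟩ : ∃ u, (b : Module.End (ZMod p) V) u ≠ 0 := by
        by_contra hcon
        push Not at hcon
        exact hb (Subtype.ext (LinearMap.ext hcon))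
      apply Subtype.ext
      apply hkey a.1 a.2 _ hu
      have : ((a * b : E) : Module.End (ZMod p) V) u = 0 := by rw [hab]; rfl
      exact this
  haveI : IsDomain E := NoZeroDivisors.to_isDomain E
  -- the dimension of `E`
  let φ : E →ₗ[ZMod p] W := LinearMap.codRestrict W
    ((LinearMap.applyₗ w : (V →ₗ[ZMod p] V) →ₗ[ZMod p] V).comp E.val.toLinearMap)
    (fun x => hEinv x.1 x.2 W hWinv w hwW)
  have hφ : Function.Injective φ := by
    rw [← LinearMap.ker_eq_bot, LinearMap.ker_eq_bot']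
    intro x hx
    apply Subtype.ext
    apply hkey x.1 x.2 w hw0
    exact congrArg Subtype.val hx
  have hfr : Module.finrank (ZMod p) E ≤ Module.finrank (ZMod p) W :=
    LinearMap.finrank_le_finrank_of_injective hφ
  refine le_trans ?_ hfr
  obtain ⟨a₀, ha₀⟩ := hcyc.exists_generator
  let β : H → E := fun h => ⟨r (h * a₀ * h⁻¹), Algebra.subset_adjoin ⟨_, hAn.conj_mem a₀ a₀.2 h, rfl⟩⟩
  let f := minpoly (ZMod p) (β 1)
  have hf0 : f ≠ 0 := minpoly.ne_zero (IsIntegral.of_finite (ZMod p) (β 1))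
  have hfdeg : f.natDegree ≤ Module.finrank (ZMod p) E := minpoly.natDegree_le (β 1)
  refine le_trans ?_ hfdeg
  refine le_trans ?_ (Polynomial.ncard_rootSet_le f E)
  have hroot : ∀ h, β h ∈ f.rootSet E := by
    intro h
    rw [Polynomial.mem_rootSet_of_ne hf0]
    apply Subtype.val_injective
    change E.val (Polynomial.aeval (β h) f) = E.val 0
    rw [← Polynomial.aeval_algHom_apply, map_zero]
    have h1 : E.val (β h) = ((h : V ≃ₗ[ZMod p] V).conjAlgEquiv (ZMod p)) (E.val (β 1)) := by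
      ext v
      simp [β, r, LinearEquiv.conjAlgEquiv_apply]
    have h2 : Polynomial.aeval (E.val (β 1)) f = 0 := by
      rw [Polynomial.aeval_algHom_apply, minpoly.aeval, map_zero]
    have h3 := Polynomial.aeval_algHom_apply
      (((h : V ≃ₗ[ZMod p] V).conjAlgEquiv (ZMod p)).toAlgHom)
      (E.val (β 1)) f
    rw [h2, map_zero] at h3
    rw [h1]
    exact h3
  rw [Subgroup.index_eq_card, ← Nat.card_coe_set_eq]
  let g : H ⧸ Subgroup.centralizer (A : Set H) → f.rootSet E := fun q => ⟨β q.out, hroot _⟩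
  refine Nat.card_le_card_of_injective g ?_
  intro q1 q2 hq
  have h1 : β q1.out = β q2.out := congrArg Subtype.val hq
  have h2 : q1.out * a₀ * q1.out⁻¹ = q2.out * a₀ * q2.out⁻¹ := hrinj (congrArg Subtype.val h1)
  rw [← QuotientGroup.out_eq' q1, ← QuotientGroup.out_eq' q2, QuotientGroup.eq,
    Subgroup.mem_centralizer_iff]
  have h3 : Commute (q1.out⁻¹ * q2.out) (a₀ : H) := by
    have : q1.out⁻¹ * q2.out * a₀ = q1.out⁻¹ * (q2.out * a₀ * q2.out⁻¹) * q2.out := by group
    change q1.out⁻¹ * q2.out * a₀ = a₀ * (q1.out⁻¹ * q2.out)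
    rw [this, ← h2]
    group
  intro b hb
  obtain ⟨i, hi⟩ := Subgroup.mem_zpowers_iff.mp (ha₀ ⟨b, hb⟩)
  have hb' : b = (a₀ : H) ^ i := by
    have := congrArg Subtype.val hi
    simpa using this.symm
  rw [hb']
  exact ((h3.zpow_right i).eq).symm

end

end Cfsg.Agent.Lib.Helper96
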