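import Mathlib
import Cfsg.Agent.Lib.Helper4.SecondMainA
import Cfsg.Agent.Lib.Helper3.Table

/-!
# Idempotents of the group algebra over the local ring at `M` and their characters

* `exists_idem_of_prod_eq_zero`: splitting off the "unit eigenvalue" part of an element `t`
  of an algebra over a local ring annihilated by a split polynomial.
* `exists_roots_RM`: an element integral over `ℤ` is annihilated by a split polynomial over `RM M`.
* `clf M b`: the class function `g ↦ ∑ k, b (k g⁻¹ k⁻¹)`; for an idempotent `e` it is the character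
  of the left ideal generated by `e`; it vanishes on `p`-singular elements (`clf_eq_zero_of_idem`).
-/

set_option autoImplicit false

namespace Cfsg.Agent.Lib.Helper96

open Polynomial Cfsg Cfsg.Agent.Lib.Helper78 Cfsg.Agent.Lib.Helper16 Cfsg.Agent.Lib.Helper4
  Cfsg.Agent.Lib.Helper3

theorem isCoprime_prod_aux {R : Type*} [CommRing R] (I : Ideal R) (hI : ∀ x, x ∉ I → IsUnit x)
    (K₀ K₁ : Multiset R) (h₀ : ∀ κ ∈ K₀, κ ∈ I) (h₁ : ∀ κ ∈ K₁, κ ∉ I) :
    IsCoprime ((K₀.map fun κ => (X - C κ : R[X])).prod)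
      ((K₁.map fun κ => (X - C κ : R[X])).prod) := by
  induction K₀ using Multiset.induction_on with
  | empty => simpa using isCoprime_one_left
  | cons a s ih =>
    rw [Multiset.map_cons, Multiset.prod_cons]
    refine IsCoprime.mul_left ?_ (ih fun κ hκ => h₀ κ (Multiset.mem_cons_of_mem hκ))
    have ha : a ∈ I := h₀ a (Multiset.mem_cons_self a s)
    clear ih h₀
    induction K₁ using Multiset.induction_on with
    | empty => simpa using isCoprime_one_right
    | cons b u ih' =>
      rw [Multiset.map_cons, Multiset.prod_cons]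
      refine IsCoprime.mul_right ?_ (ih' fun κ hκ => h₁ κ (Multiset.mem_cons_of_mem hκ))
      have hb : b ∉ I := h₁ b (Multiset.mem_cons_self b u)
      have hu : IsUnit (b - a) := hI _ fun h => hb (by
        have := I.add_mem h ha
        simpa using this)
      obtain ⟨v, hv⟩ := hu
      refine ⟨C (↑v⁻¹ : R), - C (↑v⁻¹ : R), ?_⟩
      have : (C (↑v⁻¹ : R) * (X - C a) + - C (↑v⁻¹ : R) * (X - C b) : R[X])
          = C (↑v⁻¹ * (b - a)) := by
        rw [C_mul, C_sub]; ring
      rw [this, ← hv]
      simp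

/-- Let `t` be annihilated by `∏ (X - κ)`, `κ ∈ K`, over a local ring (`I` its maximal ideal), with
`0 ∈ K`.  Then some polynomial `X * w` evaluates at `t` to an idempotent, and takes the value `1`
at the units of `K`. -/
theorem exists_idem_of_prod_eq_zero {R B : Type*} [CommRing R] [Ring B] [Algebra R B]
    (I : Ideal R) (hI : ∀ x, x ∉ I → IsUnit x)
    (t : B) (K : Multiset R)
    (hK : aeval t ((K.map fun κ => (X - C κ : R[X])).prod) = 0) (h0 : (0 : R) ∈ K) :
    ∃ w : R[X], aeval t (X * w) * aeval t (X * w) = aeval t (X * w) ∧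
      ∀ κ ∈ K, κ ∉ I → (X * w).eval κ = 1 := by
  classical
  set K₀ := K.filter (· ∈ I) with hK₀
  set K₁ := K.filter (fun κ => ¬ κ ∈ I) with hK₁
  have hsplit : K₀ + K₁ = K := Multiset.filter_add_not _ K
  set f₀ := (K₀.map fun κ => (X - C κ : R[X])).prod with hf₀
  set f₁ := (K₁.map fun κ => (X - C κ : R[X])).prod with hf₁
  have hprod : f₀ * f₁ = (K.map fun κ => (X - C κ : R[X])).prod := by
    rw [← hsplit, Multiset.map_add, Multiset.prod_add]
  obtain ⟨a, b, hab⟩ : IsCoprime f₀ f₁ := isCoprime_prod_aux I hI K₀ K₁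
    (fun κ hκ => (Multiset.mem_filter.1 hκ).2) (fun κ hκ => (Multiset.mem_filter.1 hκ).2)
  have hX : (X : R[X]) ∣ f₀ := by
    have : (X - C (0 : R) : R[X]) ∈ K₀.map fun κ => (X - C κ : R[X]) :=
      Multiset.mem_map_of_mem _ (Multiset.mem_filter.2 ⟨h0, I.zero_mem⟩)
    have := Multiset.dvd_prod this
    simpa using this
  obtain ⟨w₀, hw₀⟩ := hX
  refine ⟨a * w₀, ?_, ?_⟩
  · have e1 : X * (a * w₀) = a * f₀ := by rw [hw₀]; ring
    rw [e1]
    have e2 : a * f₀ = a * f₀ * (a * f₀) + a * b * (f₀ * f₁) := by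
      have : a * f₀ * (a * f₀) + a * b * (f₀ * f₁) = a * f₀ * (a * f₀ + b * f₁) := by ring
      rw [this, hab, mul_one]
    conv_rhs => rw [e2]
    rw [map_add, map_mul (aeval t) (a * f₀), map_mul (aeval t) (a * b), hprod, hK, mul_zero,
      add_zero]
  · intro κ hκ hκI
    have e1 : X * (a * w₀) = 1 - b * f₁ := by rw [← hab, hw₀]; ring
    rw [e1, eval_sub, eval_one, eval_mul]
    have : f₁.eval κ = 0 := by
      rw [hf₁, eval_multiset_prod]
      apply Multiset.prod_eq_zero
      rw [Multiset.mem_map]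
      refine ⟨X - C κ, Multiset.mem_map_of_mem _ (Multiset.mem_filter.2 ⟨hκ, hκI⟩), by simp⟩
    rw [this, mul_zero, sub_zero]

section roots

variable (M : Ideal AlgInt) [hMm : M.IsMaximal]

theorem isUnit_of_not_mem_mM (x : RM M) (hx : x ∉ mM M) : IsUnit x := by
  have hinv : MemLocalRing M ((x : ℂ)⁻¹) := MemLocalRing.inv hMm.isPrime x.2 hx
  refine IsUnit.of_mul_eq_one (⟨(x : ℂ)⁻¹, hinv⟩ : RM M) ?_
  apply Subtype.ext
  show (x : ℂ) * (x : ℂ)⁻¹ = 1
  exact mul_inv_cancel₀ (ne_zero_of_not_memLocalIdeal hMm.isPrime hx)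

theorem exists_roots_RM {B : Type*} [Ring B] [Algebra (RM M) B] (t : B) (ht : IsIntegral ℤ t) :
    ∃ K : Multiset (RM M), aeval t ((K.map fun κ => (X - C κ : (RM M)[X])).prod) = 0 ∧
      (0 : RM M) ∈ K := by
  obtain ⟨P, hPm, hP⟩ := ht
  set Pc : ℂ[X] := P.map (Int.castRingHom ℂ) with hPc
  have hPcm : Pc.Monic := hPm.map _
  have hsplit : Pc = (Pc.roots.map fun x => X - C x).prod :=
    (IsAlgClosed.splits Pc).eq_prod_roots_of_monic hPcm
  have hint : ∀ z ∈ Pc.roots, z ∈ RM M := by
    intro z hz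
    show MemLocalRing M z
    apply memLocalRing_of_isIntegral hMm.isPrime
    refine ⟨P, hPm, ?_⟩
    have := (mem_roots hPcm.ne_zero).1 hz
    rw [IsRoot.def, hPc, eval_map] at this
    simpa using this
  set K₀ : Multiset (RM M) := Pc.roots.pmap (fun z hz => (⟨z, hz⟩ : RM M)) hint with hK₀
  have hmap : ((K₀.map fun κ => (X - C κ : (RM M)[X])).prod).map (RM M).subtype = Pc := by
    rw [Polynomial.map_multiset_prod, Multiset.map_map]
    conv_rhs => rw [hsplit]
    congr 1
    rw [hK₀, Multiset.map_pmap]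
    rw [← Multiset.pmap_eq_map (p := fun z => z ∈ RM M) _ _ hint]
    apply Multiset.pmap_congr
    intro z _ _ _
    simp
  have hmap2 : (P.map (Int.castRingHom (RM M))).map (RM M).subtype = Pc := by
    rw [Polynomial.map_map, hPc]
    congr 1
  have heq : (K₀.map fun κ => (X - C κ : (RM M)[X])).prod = P.map (Int.castRingHom (RM M)) :=
    Polynomial.map_injective _ Subtype.val_injective (hmap.trans hmap2.symm)
  refine ⟨0 ::ₘ K₀, ?_, Multiset.mem_cons_self _ _⟩
  rw [Multiset.map_cons, Multiset.prod_cons, map_mul, heq]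
  have : aeval t (P.map (Int.castRingHom (RM M))) = 0 := by
    have h1 := aeval_map_algebraMap (RM M) t P
    rw [show algebraMap ℤ (RM M) = Int.castRingHom (RM M) from rfl] at h1
    rw [h1, aeval_def]
    exact hP
  rw [this, mul_zero]

end roots

section linalg

variable {V : Type*} [AddCommGroup V] [Module ℂ V] [FiniteDimensional ℂ V]

theorem trace_eq_finrank_of_idem (f : Module.End ℂ V) (hf : f * f = f) :
    LinearMap.trace ℂ V f = (Module.finrank ℂ (LinearMap.range f) : ℂ) :=
  ((LinearMap.isProj_range_iff_isIdempotentElem f).2 hf).trace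

theorem finrank_range_mul_le (x f y : Module.End ℂ V) :
    Module.finrank ℂ (LinearMap.range (x * f * y)) ≤ Module.finrank ℂ (LinearMap.range f) := by
  have h1 : LinearMap.range (x * f * y) ≤ (LinearMap.range f).map x := by
    rintro _ ⟨v, rfl⟩
    exact ⟨f (y v), ⟨y v, rfl⟩, rfl⟩
  exact (Submodule.finrank_mono h1).trans (Submodule.finrank_map_le x _)

end linalg

noncomputable section groupalg

variable (M : Ideal AlgInt) [hMm : M.IsMaximal]
variable {G : Type*} [Group G] [Fintype G]

/-- the complex coefficient function of an element of the group algebra over `RM M` -/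
def cf (b : MonoidAlgebra (RM M) G) : G → ℂ := fun g => ((b.coeff g : RM M) : ℂ)

omit [Fintype G] in
theorem cf_mem (b : MonoidAlgebra (RM M) G) (g : G) : MemLocalRing M (cf M b g) := (b.coeff g).2

theorem cf_mul (b c : MonoidAlgebra (RM M) G) : cf M (b * c) = conv (cf M b) (cf M c) := by
  funext g
  unfold cf conv
  rw [MonoidAlgebra.coeff_mul_apply_left, Finsupp.sum_fintype _ _ (fun _ => zero_mul _)]
  simp

/-- the class function attached to an element of the group algebra -/
def clf (b : MonoidAlgebra (RM M) G) : G → ℂ := fun g => ∑ k : G, cf M b (k * g⁻¹ * k⁻¹)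

theorem clf_isClassFunction (b : MonoidAlgebra (RM M) G) : IsClassFunction G (clf M b) := by
  intro g h
  unfold clf
  refine Fintype.sum_equiv (Equiv.mulRight h) _ _ fun k => ?_
  simp only [Equiv.coe_mulRight]
  congr 1
  group

theorem classInner_clf (b : MonoidAlgebra (RM M) G) {χ : G → ℂ} (hχ : IsCharacter G χ) :
    classInner (clf M b) χ = ∑ x : G, cf M b x * χ x := by
  have hc : (Nat.card G : ℂ) ≠ 0 := by exact_mod_cast Nat.card_pos.ne'
  unfold classInner clf
  have h1 : ∀ g : G, (∑ k : G, cf M b (k * g⁻¹ * k⁻¹)) * (starRingEnd ℂ) (χ g)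
      = ∑ k : G, cf M b (k * g⁻¹ * k⁻¹) * χ (k * g⁻¹ * k⁻¹) := by
    intro g
    rw [Finset.sum_mul]
    refine Finset.sum_congr rfl fun k _ => ?_
    rw [IsCharacter.isClassFunction hχ, IsCharacter.apply_inv hχ]
  simp only [h1]
  rw [Finset.sum_comm]
  have h2 : ∀ k : G, ∑ g : G, cf M b (k * g⁻¹ * k⁻¹) * χ (k * g⁻¹ * k⁻¹)
      = ∑ x : G, cf M b x * χ x := by
    intro k
    refine Fintype.sum_equiv ((Equiv.inv G).trans (MulAut.conj k).toEquiv) _ _ fun g => ?_
    simp
  simp only [h2]
  rw [Finset.sum_const, Finset.card_univ, nsmul_eq_mul, ← Nat.card_eq_fintype_card,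
    inv_mul_cancel_left₀ hc]

variable {V : Type*} [AddCommGroup V] [Module ℂ V]

/-- a representation extended to the group algebra over `RM M` -/
def repHom (ρ : Representation ℂ G V) : MonoidAlgebra (RM M) G →ₐ[RM M] Module.End ℂ V :=
  MonoidAlgebra.lift (RM M) (Module.End ℂ V) G ρ

theorem trace_repHom [FiniteDimensional ℂ V] (ρ : Representation ℂ G V)
    (b : MonoidAlgebra (RM M) G) :
    LinearMap.trace ℂ V (repHom M ρ b) = ∑ x : G, cf M b x * ρ.character x := by
  unfold repHom
  rw [MonoidAlgebra.lift_apply, Finsupp.sum_fintype _ (fun a b => b • ρ a)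
    (fun a => zero_smul _ (ρ a)), map_sum]
  refine Finset.sum_congr rfl fun x _ => ?_
  have : (b.coeff x) • ρ x = ((b.coeff x : RM M) : ℂ) • ρ x := rfl
  rw [this, map_smul, smul_eq_mul]
  rfl

/-- The multiplicity of `ρ` in the character of an idempotent. -/
theorem classInner_clf_idem [FiniteDimensional ℂ V] (ρ : Representation ℂ G V)
    (hρ : IsCharacter G ρ.character)
    (e : MonoidAlgebra (RM M) G) (he : e * e = e) :
    classInner (clf M e) ρ.character
      = (Module.finrank ℂ (LinearMap.range (repHom M ρ e)) : ℂ) := by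
  rw [classInner_clf M e hρ, ← trace_repHom, trace_eq_finrank_of_idem]
  rw [← map_mul, he]

end groupalg

end Cfsg.Agent.Lib.Helper96
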