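import Mathlib
import Cfsg.Agent.Lib.Helper96.ProjIdem

/-!
# Subgroup sums in the group algebra over `RM M`, vanishing on `p`-singular elements
-/

set_option autoImplicit false

namespace Cfsg.Agent.Lib.Helper96

open Polynomial Cfsg Cfsg.Agent.Lib.Helper78 Cfsg.Agent.Lib.Helper16 Cfsg.Agent.Lib.Helper4
  Cfsg.Agent.Lib.Helper3

noncomputable section

variable (M : Ideal AlgInt) [hMm : M.IsMaximal]
variable {G : Type*} [Group G] [Fintype G]

/-- The character of an idempotent over the local ring vanishes on `p`-singular elements. -/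
theorem clf_eq_zero_of_idem {p : ℕ} (hM : IsPModular p M) (e : MonoidAlgebra (RM M) G)
    (he : e * e = e) (g : G) (hg : p ∣ orderOf g) : clf M e g = 0 := by
  classical
  have : Fact p.Prime := ⟨hM.1⟩
  have : CharP (FM M) p := charP_FM hM
  have hidem : conv (cf M e) (cf M e) = cf M e := by rw [← cf_mul, he]
  have key := sum_conj_eq_zero_of_idem (M := M) (p := p) (cf M e) (cf_mem M e) hidem 1 g⁻¹
    (fun w => by simp) (fun _ => False) (fun _ => Iff.rfl) ?_ ?_
  · unfold clf
    rw [← key]
    refine Finset.sum_congr rfl fun k _ => ?_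
    simp
  · intro k _ j hj
    have h1 : g ^ j = 1 := by
      have : k * ((g⁻¹) ^ j)⁻¹ = k := by simpa using hj
      have h2 : ((g⁻¹) ^ j)⁻¹ = 1 := by simpa using this
      simpa using h2
    have h2 : (orderOf g : ℤ) ∣ j := orderOf_dvd_iff_zpow_eq_one.2 h1
    exact (Int.natCast_dvd_natCast.2 hg).trans h2
  · have : (Matrix.of fun x y : G =>
      if False ∧ False then redC M (cf M e (x * y⁻¹)) else 0 : Matrix G G (FM M)) = 0 := by
      ext x y; simp
    rw [this]
    exact IsNilpotent.zero

/-- the augmentation -/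
def aug : MonoidAlgebra (RM M) G →ₐ[RM M] RM M := MonoidAlgebra.lift (RM M) (RM M) G 1

theorem aug_apply (b : MonoidAlgebra (RM M) G) : aug M b = ∑ x : G, b.coeff x := by
  unfold aug
  rw [MonoidAlgebra.lift_apply, Finsupp.sum_fintype _ (fun a b => b • (1 : G →* RM M) a)
    (fun a => zero_smul _ _)]
  simp

theorem coe_aug (b : MonoidAlgebra (RM M) G) : ((aug M b : RM M) : ℂ) = ∑ x : G, cf M b x := by
  rw [aug_apply]
  unfold cf
  simp

theorem classInner_clf_one (b : MonoidAlgebra (RM M) G) :
    classInner (clf M b) (1 : G → ℂ) = ((aug M b : RM M) : ℂ) := by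
  rw [classInner_clf M b isCharacter_one, coe_aug]
  simp

open Classical in
/-- the sum of the elements of a subgroup, over any coefficient ring -/
def sH (k : Type*) [Semiring k] (H : Subgroup G) : MonoidAlgebra k G :=
  ∑ h : H, MonoidAlgebra.single (h : G) 1

theorem sH_mul_self (k : Type*) [Semiring k] (H : Subgroup G) :
    sH k H * sH k H = (Nat.card H : MonoidAlgebra k G) * sH k H := by
  classical
  unfold sH
  rw [Finset.sum_mul]
  have : ∀ h : H, MonoidAlgebra.single (h : G) (1 : k) * ∑ h' : H, MonoidAlgebra.single (h' : G) 1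
      = ∑ h' : H, MonoidAlgebra.single (h' : G) 1 := by
    intro h
    rw [Finset.mul_sum]
    refine Fintype.sum_equiv (Equiv.mulLeft h) _ _ fun h' => ?_
    simp [MonoidAlgebra.single_mul_single]
  simp only [this]
  rw [Finset.sum_const, Finset.card_univ, nsmul_eq_mul, Nat.card_eq_fintype_card]

theorem sH_map {k k' : Type*} [Semiring k] [Semiring k'] (f : k →+* k') (H : Subgroup G) :
    MonoidAlgebra.mapRingHom G f (sH k H) = sH k' H := by
  unfold sH
  rw [map_sum]
  simp

open Classical in
theorem cf_sH (H : Subgroup G) (g : G) : cf M (sH (RM M) H) g = if g ∈ H then 1 else 0 := by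
  unfold cf sH
  rw [MonoidAlgebra.coeff_sum, Finsupp.finset_sum_apply]
  simp only [MonoidAlgebra.coeff_single, Finsupp.single_apply]
  split_ifs with hg
  · rw [Finset.sum_eq_single (⟨g, hg⟩ : H)]
    · simp
    · intro b _ hb
      rw [if_neg]
      intro h
      exact hb (Subtype.ext h)
    · intro h; exact absurd (Finset.mem_univ _) h
  · rw [Finset.sum_eq_zero]
    · simp
    · intro b _
      rw [if_neg]
      intro h
      exact hg (h ▸ b.2)

theorem aug_sH (H : Subgroup G) : aug M (sH (RM M) H) = (Nat.card H : RM M) := by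
  classical
  unfold sH aug
  rw [map_sum]
  simp [MonoidAlgebra.lift_single, Nat.card_eq_fintype_card]

theorem isIntegral_of_map (x : MonoidAlgebra ℤ G) :
    IsIntegral ℤ (MonoidAlgebra.mapRingHom G (Int.castRingHom (RM M)) x) :=
  (IsIntegral.of_finite ℤ x).map (MonoidAlgebra.mapRingHom G (Int.castRingHom (RM M))).toIntAlgHom

end

end Cfsg.Agent.Lib.Helper96
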