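import Mathlib
import Cfsg.Agent.Lib.Helper96.ProjIdem2

/-!
# A projective character containing the trivial character, of small norm

If `|G| = p ^ a * |Q| * |R|` with `Q`, `R` subgroups of coprime orders prime to `p`, there is a
character `f` of `G` vanishing on `p`-singular elements, containing the trivial character exactly
once and with `⟨f, f⟩ ≤ p ^ a`  (a common projective summand of `(1_Q)^G` and `(1_R)^G`).
-/

set_option autoImplicit false

namespace Cfsg.Agent.Lib.Helper96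

open Polynomial Cfsg Cfsg.Agent.Lib.Helper78 Cfsg.Agent.Lib.Helper16 Cfsg.Agent.Lib.Helper4
  Cfsg.Agent.Lib.Helper3

noncomputable section

variable (M : Ideal AlgInt) [hMm : M.IsMaximal]
variable {G : Type*} [Group G] [Fintype G]

/-- the inverse of a natural number prime to `p`, in the local ring -/
def invNat {p : ℕ} (hM : IsPModular p M) (n : ℕ) (hn : ¬ p ∣ n) : RM M :=
  ⟨(n : ℂ)⁻¹, memLocalRing_inv_natCast hM hn⟩

theorem invNat_mul {p : ℕ} (hM : IsPModular p M) (n : ℕ) (hn : ¬ p ∣ n) :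
    invNat M hM n hn * (n : RM M) = 1 := by
  apply Subtype.ext
  have h0 : (n : ℂ) ≠ 0 := by
    intro h
    have : n = 0 := by exact_mod_cast h
    exact hn (this ▸ dvd_zero p)
  show (n : ℂ)⁻¹ * ((n : RM M) : ℂ) = 1
  have : ((n : RM M) : ℂ) = (n : ℂ) := by simp
  rw [this, inv_mul_cancel₀ h0]

/-- the idempotent of a subgroup of order prime to `p` -/
def epsH {p : ℕ} (hM : IsPModular p M) (H : Subgroup G) (hH : ¬ p ∣ Nat.card H) :
    MonoidAlgebra (RM M) G := invNat M hM _ hH • sH (RM M) H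

theorem epsH_idem {p : ℕ} (hM : IsPModular p M) (H : Subgroup G) (hH : ¬ p ∣ Nat.card H) :
    epsH M hM H hH * epsH M hM H hH = epsH M hM H hH := by
  unfold epsH
  rw [smul_mul_smul_comm, sH_mul_self, ← nsmul_eq_mul, ← Nat.cast_smul_eq_nsmul (RM M), smul_smul,
    mul_assoc, invNat_mul, mul_one]

theorem sH_eq {p : ℕ} (hM : IsPModular p M) (H : Subgroup G) (hH : ¬ p ∣ Nat.card H) :
    sH (RM M) H = (Nat.card H : MonoidAlgebra (RM M) G) * epsH M hM H hH := by
  unfold epsH
  rw [← nsmul_eq_mul, ← Nat.cast_smul_eq_nsmul (RM M), smul_smul, mul_comm, invNat_mul, one_smul]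

open Classical in
theorem cf_epsH {p : ℕ} (hM : IsPModular p M) (H : Subgroup G) (hH : ¬ p ∣ Nat.card H) (g : G) :
    cf M (epsH M hM H hH) g = if g ∈ H then (Nat.card H : ℂ)⁻¹ else 0 := by
  have h1 : cf M (epsH M hM H hH) g = (Nat.card H : ℂ)⁻¹ * cf M (sH (RM M) H) g := by
    unfold cf epsH
    rw [MonoidAlgebra.coeff_smul_apply]
    rfl
  rw [h1, cf_sH]
  split_ifs <;> simp

theorem clf_epsH_one {p : ℕ} (hM : IsPModular p M) (H : Subgroup G) (hH : ¬ p ∣ Nat.card H) :
    clf M (epsH M hM H hH) 1 = (Nat.card G : ℂ) * (Nat.card H : ℂ)⁻¹ := by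
  classical
  unfold clf
  simp [cf_epsH, H.one_mem, Nat.card_eq_fintype_card]

theorem orderOf_dvd_of_clf_epsH_ne_zero {p : ℕ} (hM : IsPModular p M) (H : Subgroup G)
    (hH : ¬ p ∣ Nat.card H) (g : G) (hg : clf M (epsH M hM H hH) g ≠ 0) :
    orderOf g ∣ Nat.card H := by
  classical
  unfold clf at hg
  obtain ⟨k, _, hk⟩ := Finset.exists_ne_zero_of_sum_ne_zero hg
  rw [cf_epsH] at hk
  have hmem : k * g⁻¹ * k⁻¹ ∈ H := by
    by_contra h
    rw [if_neg h] at hk
    exact hk rfl
  have h1 : orderOf (k * g⁻¹ * k⁻¹) ∣ Nat.card H := by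
    have := orderOf_dvd_natCard (⟨_, hmem⟩ : H)
    rwa [Subgroup.orderOf_mk] at this
  have h2 : orderOf (k * g⁻¹ * k⁻¹) = orderOf g := by
    have : k * g⁻¹ * k⁻¹ = MulAut.conj k g⁻¹ := by simp
    rw [this, MulEquiv.orderOf_eq, orderOf_inv]
  rwa [h2] at h1

theorem classInner_clf_epsH {p a : ℕ} (hM : IsPModular p M) (Q R : Subgroup G)
    (hQ : ¬ p ∣ Nat.card Q) (hR : ¬ p ∣ Nat.card R) (hcop : (Nat.card Q).Coprime (Nat.card R))
    (hcard : Nat.card G = p ^ a * Nat.card Q * Nat.card R) :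
    classInner (clf M (epsH M hM Q hQ)) (clf M (epsH M hM R hR)) = ((p ^ a : ℕ) : ℂ) := by
  unfold classInner
  rw [Finset.sum_eq_single (1 : G)]
  · rw [clf_epsH_one, clf_epsH_one, hcard]
    have h1 : (Nat.card Q : ℂ) ≠ 0 := by exact_mod_cast Nat.card_pos.ne'
    have h2 : (Nat.card R : ℂ) ≠ 0 := by exact_mod_cast Nat.card_pos.ne'
    have h3 : ((p ^ a : ℕ) : ℂ) ≠ 0 := by exact_mod_cast (pow_pos hM.1.pos a).ne'
    simp only [map_mul, map_inv₀, Complex.conj_natCast, Nat.cast_mul]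
    field_simp
  · intro g _ hg
    by_contra hne
    have h1 : clf M (epsH M hM Q hQ) g ≠ 0 := fun h => hne (by rw [h, zero_mul])
    have h2 : clf M (epsH M hM R hR) g ≠ 0 := fun h => hne (by rw [h, map_zero, mul_zero])
    have d1 := orderOf_dvd_of_clf_epsH_ne_zero M hM Q hQ g h1
    have d2 := orderOf_dvd_of_clf_epsH_ne_zero M hM R hR g h2
    have : orderOf g = 1 := Nat.eq_one_of_dvd_coprimes hcop d1 d2
    exact hg (orderOf_eq_one_iff.1 this)
  · intro h; exact absurd (Finset.mem_univ _) h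

/-- comparison of multiplicities -/
theorem exists_mult_le (e f x y : MonoidAlgebra (RM M) G) (he : e * e = e) (hf : f * f = f)
    (hxy : e = x * f * y) (χ : IrrCharacter G) :
    ∃ n m : ℕ, classInner (clf M e) χ = n ∧ classInner (clf M f) χ = m ∧ n ≤ m := by
  obtain ⟨d, ρ, _, hρ⟩ := χ.2
  have hc : IsCharacter G ρ.character := ⟨d, ρ, rfl⟩
  refine ⟨Module.finrank ℂ (LinearMap.range (repHom M ρ e)),
    Module.finrank ℂ (LinearMap.range (repHom M ρ f)), ?_, ?_, ?_⟩
  · rw [← hρ]; exact classInner_clf_idem M ρ hc e he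
  · rw [← hρ]; exact classInner_clf_idem M ρ hc f hf
  · conv_lhs => rw [hxy, map_mul, map_mul]
    exact finrank_range_mul_le _ _ _

theorem exists_proj_character {p a : ℕ} (hM : IsPModular p M) (Q R : Subgroup G)
    (hQ : ¬ p ∣ Nat.card Q) (hR : ¬ p ∣ Nat.card R) (hcop : (Nat.card Q).Coprime (Nat.card R))
    (hcard : Nat.card G = p ^ a * Nat.card Q * Nat.card R) :
    ∃ f : G → ℂ, IsCharacter G f ∧ (∀ g, p ∣ orderOf g → f g = 0) ∧ classInner f 1 = 1 ∧
      ∃ n : ℕ, classInner f f = n ∧ n ≤ p ^ a := by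
  classical
  have := Fintype.ofFinite (IrrCharacter G)
  set sQ := sH (RM M) Q with hsQ
  set sR := sH (RM M) R with hsR
  set t := sQ * sR * sQ with ht
  have hint : IsIntegral ℤ t := by
    have := isIntegral_of_map M (sH ℤ Q * sH ℤ R * sH ℤ Q)
    rwa [map_mul, map_mul, sH_map, sH_map] at this
  obtain ⟨K, hK, h0⟩ := exists_roots_RM M t hint
  obtain ⟨w, hidem, hval⟩ :=
    exists_idem_of_prod_eq_zero (mM M) (isUnit_of_not_mem_mM M) t K hK h0
  set e := aeval t (X * w) with he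
  set W := aeval t w with hW
  have heW : e = t * W := by rw [he, map_mul, aeval_X]
  -- the augmentation
  set κ : RM M := ((Nat.card Q * Nat.card R * Nat.card Q : ℕ) : RM M) with hκ
  have haugt : aug M t = κ := by
    rw [ht, map_mul, map_mul, hsQ, hsR, aug_sH, aug_sH, hκ]
    push_cast
    ring
  have hκK : κ ∈ K := by
    have h1 := congrArg (aug M) hK
    rw [← aeval_algHom_apply, map_zero, haugt, coe_aeval_eq_eval, eval_multiset_prod,
      Multiset.prod_eq_zero_iff, Multiset.mem_map] at h1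
    obtain ⟨q, hq, hq0⟩ := h1
    obtain ⟨κ', hκ', rfl⟩ := Multiset.mem_map.1 hq
    have : κ = κ' := by
      have : κ - κ' = 0 := by simpa using hq0
      exact sub_eq_zero.1 this
    rw [this]; exact hκ'
  have hκm : κ ∉ mM M := by
    intro h
    have h1 : MemLocalIdeal M ((Nat.card Q * Nat.card R * Nat.card Q : ℕ) : ℂ) := by
      have h2 : MemLocalIdeal M ((κ : RM M) : ℂ) := h
      have h3 : ((κ : RM M) : ℂ) = ((Nat.card Q * Nat.card R * Nat.card Q : ℕ) : ℂ) := by
        rw [hκ]; simp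
      rwa [h3] at h2
    have h2 := (memLocalIdeal_natCast_iff hM _).1 h1
    rcases (hM.1.dvd_mul).1 h2 with h3 | h3
    · rcases (hM.1.dvd_mul).1 h3 with h4 | h4
      · exact hQ h4
      · exact hR h4
    · exact hQ h3
  have hauge : aug M e = 1 := by
    rw [he, ← aeval_algHom_apply, haugt, coe_aeval_eq_eval]
    exact hval κ hκK hκm
  -- the multiplicities
  set eQ := epsH M hM Q hQ with heQ
  set eR := epsH M hM R hR with heR
  have hxQ : e = (Nat.card Q : MonoidAlgebra (RM M) G) * eQ * (sR * sQ * W) := by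
    rw [heW, ht, ← sH_eq M hM Q hQ, ← hsQ]
    simp only [mul_assoc]
  have hxR : e = (sQ * (Nat.card R : MonoidAlgebra (RM M) G)) * eR * (sQ * W) := by
    rw [heW, ht, mul_assoc sQ (Nat.card R : MonoidAlgebra (RM M) G) eR, ← sH_eq M hM R hR, ← hsR]
    simp only [mul_assoc]
  have hmQ := fun χ => exists_mult_le M e eQ _ _ hidem (epsH_idem M hM Q hQ) hxQ χ
  have hmR := fun χ => exists_mult_le M e eR _ _ hidem (epsH_idem M hM R hR) hxR χ
  choose n mQ hn hmQ hnQ using hmQ
  choose n' mR hn' hmR hnR using hmR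
  have hnn' : n' = n := by
    funext χ
    have := (hn' χ).symm.trans (hn χ)
    exact_mod_cast this
  rw [hnn'] at hnR
  refine ⟨clf M e, ?_, fun g hg => clf_eq_zero_of_idem M hM e hidem g hg, ?_, ?_⟩
  · exact isCharacter_iff.2 ⟨clf_isClassFunction M e, fun χ => ⟨n χ, hn χ⟩⟩
  · rw [classInner_clf_one, hauge]; rfl
  · refine ⟨∑ χ : IrrCharacter G, n χ * n χ, ?_, ?_⟩
    · rw [classInner_eq_sum_coeff (clf_isClassFunction M e)]
      push_cast
      refine Finset.sum_congr rfl fun χ _ => ?_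
      rw [← classInner_conj_symm (clf M e) χ, hn χ, Complex.conj_natCast]
    · have h1 : ((∑ χ : IrrCharacter G, mQ χ * mR χ : ℕ) : ℂ) = ((p ^ a : ℕ) : ℂ) := by
        rw [← classInner_clf_epsH M hM Q R hQ hR hcop hcard,
          classInner_eq_sum_coeff (clf_isClassFunction M _)]
        push_cast
        refine Finset.sum_congr rfl fun χ _ => ?_
        rw [← classInner_conj_symm (clf M (epsH M hM R hR)) χ, hmR χ, hmQ χ, Complex.conj_natCast]
      have h2 : ∑ χ : IrrCharacter G, mQ χ * mR χ = p ^ a := by exact_mod_cast h1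
      rw [← h2]
      exact Finset.sum_le_sum fun χ _ => Nat.mul_le_mul (hnQ χ) (hnR χ)

end

end Cfsg.Agent.Lib.Helper96
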