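import Cfsg.Agent.Lib.Helper66.St2SL

/-!
# The rank one Steinberg relations (A), (B'), (C) over an arbitrary field

A pair of root subgroups satisfying the relations (A), (B') and (C) is a quotient of `SL₂(K)`.
-/

set_option autoImplicit false

namespace Cfsg.Agent.Lib.Helper96.St2G

open Cfsg.Agent.Lib.Helper66 Cfsg.Agent.Lib.Helper66.St2 Matrix

variable {K : Type*} [Field K] {Γ : Type*} [Group Γ] (S : St2 K Γ)
  (hmul : ∀ t u : K, t ≠ 0 → u ≠ 0 → S.h t * S.h u = S.h (t * u))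

include hmul

theorem w_one_sq : S.w 1 * S.w 1 = S.h (-1) := by
  have h1 : S.h (-1) * S.h (-1) = 1 := by
    rw [hmul _ _ (neg_ne_zero.mpr one_ne_zero) (neg_ne_zero.mpr one_ne_zero)]
    rw [neg_mul_neg, one_mul, S.h_one]
  have h2 : S.h (-1) = (S.w 1 * S.w 1)⁻¹ := by
    unfold St2.h
    rw [_root_.mul_inv_rev, S.w_one_inv]
  have h3 : (S.h (-1))⁻¹ = S.h (-1) := inv_eq_of_mul_eq_one_left h1
  rw [← h3, h2, inv_inv]

theorem nf_h {s : K} (hs : s ≠ 0) {g : Γ} (hg : S.NF g) : S.NF (S.h s * g) := by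
  rcases hg with ⟨a, t, ht, rfl⟩ | ⟨a, t, b, ht, rfl⟩
  · refine Or.inl ⟨s ^ 2 * a, s * t, mul_ne_zero hs ht, ?_⟩
    rw [← mul_assoc, S.h_mul_x hs, mul_assoc, hmul _ _ hs ht]
  · refine Or.inr ⟨s ^ 2 * a, s * t, b, mul_ne_zero hs ht, ?_⟩
    rw [← hmul _ _ hs ht]
    simp only [← mul_assoc]
    rw [S.h_mul_x hs]

theorem w_mul_x {a : K} (ha : a ≠ 0) :
    S.w 1 * S.x a = S.x (-a⁻¹) * S.h (-a⁻¹) * S.y a⁻¹ := by
  have h1 : S.x a = S.y a⁻¹ * S.w a * S.y a⁻¹ := by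
    have : S.w a = S.y (-a⁻¹) * S.x a * S.y (-a⁻¹) := by
      rw [S.w_eq_swap ha]
      unfold St2.w
      simp only [swap_x, swap_y, inv_neg, inv_inv, neg_neg]
    rw [this, ← S.y_inv]
    group
  have h2 : S.w 1 * S.w a = S.h (-a⁻¹) := by
    rw [S.w_eq_h a, ← mul_assoc, S.w_mul_h ha, mul_assoc, w_one_sq S hmul,
      hmul _ _ (inv_ne_zero ha) (neg_ne_zero.mpr one_ne_zero), mul_neg_one]
  conv_lhs => rw [h1]
  rw [← mul_assoc, ← mul_assoc, S.w_mul_y, mul_assoc (S.x (-a⁻¹)), h2]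

theorem nf_w {g : Γ} (hg : S.NF g) : S.NF (S.w 1 * g) := by
  rcases hg with ⟨a, t, ht, rfl⟩ | ⟨a, t, b, ht, rfl⟩
  · refine Or.inr ⟨0, t⁻¹, t⁻¹ ^ 2 * a, inv_ne_zero ht, ?_⟩
    rw [S.x_mul_h ht, ← mul_assoc, S.w_mul_h ht, S.x_zero, one_mul]
  · by_cases ha : a = 0
    · subst ha
      refine Or.inl ⟨(-t⁻¹) ^ 2 * b, -t⁻¹, neg_ne_zero.mpr (inv_ne_zero ht), ?_⟩
      rw [S.x_zero, one_mul, ← S.h_mul_x (neg_ne_zero.mpr (inv_ne_zero ht))]
      rw [← mul_assoc, ← mul_assoc, S.w_mul_h ht, mul_assoc (S.h t⁻¹), w_one_sq S hmul,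
        hmul _ _ (inv_ne_zero ht) (neg_ne_zero.mpr one_ne_zero), mul_neg_one]
    · refine Or.inr ⟨-a⁻¹, -a⁻¹ * t, -(t ^ 2 * a⁻¹) + b,
        mul_ne_zero (neg_ne_zero.mpr (inv_ne_zero ha)) ht, ?_⟩
      rw [← hmul _ _ (neg_ne_zero.mpr (inv_ne_zero ha)) ht, ← S.x_add]
      calc S.w 1 * (S.x a * S.h t * S.w 1 * S.x b)
          = (S.w 1 * S.x a) * S.h t * S.w 1 * S.x b := by group
        _ = S.x (-a⁻¹) * S.h (-a⁻¹) * (S.y a⁻¹ * S.h t) * S.w 1 * S.x b := by
            rw [w_mul_x S hmul ha]; group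
        _ = S.x (-a⁻¹) * S.h (-a⁻¹) * S.h t * (S.y (t ^ 2 * a⁻¹) * S.w 1) * S.x b := by
            rw [S.y_mul_h ht]; group
        _ = S.x (-a⁻¹) * (S.h (-a⁻¹) * S.h t) * S.w 1 * (S.x (-(t ^ 2 * a⁻¹)) * S.x b) := by
            rw [S.y_mul_w]; group

theorem nf_w_inv {g : Γ} (hg : S.NF g) : S.NF ((S.w 1)⁻¹ * g) := by
  have h1 : (S.w 1)⁻¹ = S.h (-1) * S.w 1 := by
    rw [← w_one_sq S hmul]
    have h2 : S.h (-1) * S.h (-1) = 1 := by
      rw [hmul _ _ (neg_ne_zero.mpr one_ne_zero) (neg_ne_zero.mpr one_ne_zero)]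
      rw [neg_mul_neg, one_mul, S.h_one]
    rw [← w_one_sq S hmul] at h2
    rw [inv_eq_iff_mul_eq_one]
    rw [← h2]; group
  rw [h1, mul_assoc]
  exact nf_h S hmul (neg_ne_zero.mpr one_ne_zero) (nf_w S hmul hg)

theorem nf_y (c : K) {g : Γ} (hg : S.NF g) : S.NF (S.y c * g) := by
  have h1 : S.y c = S.w 1 * S.x (-c) * (S.w 1)⁻¹ := by
    rw [S.w_x one_ne_zero]
    congr 1
    simp
  rw [h1, mul_assoc, mul_assoc]
  exact nf_w S hmul (S.nf_x _ (nf_w_inv S hmul hg))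

theorem nf_all (hgen : Subgroup.closure (Set.range S.x ∪ Set.range S.y) = ⊤) (g : Γ) : S.NF g := by
  have hg : g ∈ Subgroup.closure (Set.range S.x ∪ Set.range S.y) := by rw [hgen]; trivial
  induction hg using Subgroup.closure_induction_left with
  | one => exact S.nf_one
  | mul_left x hx y _ ih =>
    rcases hx with ⟨c, rfl⟩ | ⟨c, rfl⟩
    · exact S.nf_x c ih
    · exact nf_y S hmul c ih
  | inv_mul_cancel x hx y _ ih =>
    rcases hx with ⟨c, rfl⟩ | ⟨c, rfl⟩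
    · rw [S.x_inv]; exact S.nf_x _ ih
    · rw [S.y_inv]; exact nf_y S hmul _ ih

theorem bijective_of_hom
    (hgen : Subgroup.closure (Set.range S.x ∪ Set.range S.y) = ⊤)
    (π : Γ →* SpecialLinearGroup (Fin 2) K) (hx : ∀ t, π (S.x t) = slx t)
    (hy : ∀ t, π (S.y t) = sly t) : Function.Bijective π := by
  have hw : ∀ t, π (S.w t) = sl.w t := by
    intro t
    unfold St2.w
    rw [map_mul, map_mul, hx, hy]
    rfl
  have hh : ∀ t, π (S.h t) = sl.h t := by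
    intro t
    unfold St2.h
    rw [map_mul, hw, hw]
  constructor
  · rw [injective_iff_map_eq_one]
    intro g hg
    rcases nf_all S hmul hgen g with ⟨a, t, ht, rfl⟩ | ⟨a, t, b, ht, rfl⟩
    · rw [map_mul, hx, hh] at hg
      have h1 := congrArg (fun M : SpecialLinearGroup (Fin 2) K => (M : Matrix (Fin 2) (Fin 2) K)) hg
      simp only [Matrix.SpecialLinearGroup.coe_mul, slx_coe, sl_h_coe ht, Matrix.mul_fin_two,
        Matrix.SpecialLinearGroup.coe_one] at h1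
      have h00 := congrFun (congrFun h1 0) 0
      have h01 := congrFun (congrFun h1 0) 1
      simp at h00 h01
      have ha : a = 0 := by
        rcases h01 with h | h
        · exact h
        · exact absurd h ht
      rw [h00, ha, S.x_zero, S.h_one, one_mul]
    · exfalso
      rw [map_mul, map_mul, map_mul, hx, hx, hh, hw] at hg
      have h1 := congrArg (fun M : SpecialLinearGroup (Fin 2) K => (M : Matrix (Fin 2) (Fin 2) K)) hg
      simp only [Matrix.SpecialLinearGroup.coe_mul, slx_coe, sl_h_coe ht,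
        sl_w_coe (one_ne_zero (α := K)), Matrix.mul_fin_two,
        Matrix.SpecialLinearGroup.coe_one] at h1
      have h10 := congrFun (congrFun h1 1) 0
      simp at h10
      exact ht h10
  · intro M
    rcases sl_surj M with ⟨p, c, r, rfl⟩ | ⟨a, t, -, rfl⟩
    · exact ⟨S.x p * S.y c * S.x r, by rw [map_mul, map_mul, hx, hx, hy]⟩
    · exact ⟨S.x a * S.h t, by rw [map_mul, hx, hh]⟩

end Cfsg.Agent.Lib.Helper96.St2G

namespace Cfsg.Agent.Lib.Helper96.St2G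

open Cfsg.Agent.Lib.Helper66 Cfsg.Agent.Lib.Helper66.St2 Matrix

variable {K : Type*} [Field K] {Γ : Type*} [Group Γ]

theorem sl_h_mul {t u : K} (ht : t ≠ 0) (hu : u ≠ 0) :
    (sl : St2 K _).h t * sl.h u = sl.h (t * u) := by
  apply Subtype.ext
  rw [Matrix.SpecialLinearGroup.coe_mul, sl_h_coe ht, sl_h_coe hu, sl_h_coe (mul_ne_zero ht hu),
    Matrix.mul_fin_two]
  apply mk2_ext <;> simp [mul_comm]

/-- the product of two pairs of root subgroups -/
def prodSt {Γ₁ Γ₂ : Type*} [Group Γ₁] [Group Γ₂] (S₁ : St2 K Γ₁) (S₂ : St2 K Γ₂) :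
    St2 K (Γ₁ × Γ₂) where
  x t := (S₁.x t, S₂.x t)
  y t := (S₁.y t, S₂.y t)
  x_add t u := Prod.ext (S₁.x_add t u) (S₂.x_add t u)
  y_add t u := Prod.ext (S₁.y_add t u) (S₂.y_add t u)
  relx t u ht := Prod.ext (S₁.relx t u ht) (S₂.relx t u ht)
  rely t u ht := Prod.ext (S₁.rely t u ht) (S₂.rely t u ht)

/-- restriction to the subgroup generated by the root subgroups -/
def genSt (S : St2 K Γ) : St2 K ↥(Subgroup.closure (Set.range S.x ∪ Set.range S.y)) where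
  x t := ⟨S.x t, Subgroup.subset_closure (Or.inl ⟨t, rfl⟩)⟩
  y t := ⟨S.y t, Subgroup.subset_closure (Or.inr ⟨t, rfl⟩)⟩
  x_add t u := Subtype.ext (S.x_add t u)
  y_add t u := Subtype.ext (S.y_add t u)
  relx t u ht := Subtype.ext (S.relx t u ht)
  rely t u ht := Subtype.ext (S.rely t u ht)

theorem genSt_gen (S : St2 K Γ) :
    Subgroup.closure (Set.range (genSt S).x ∪ Set.range (genSt S).y) = ⊤ := by
  have h := Subgroup.closure_closure_coe_preimage (k := Set.range S.x ∪ Set.range S.y)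
  rw [eq_top_iff, ← h]
  apply Subgroup.closure_mono
  rintro ⟨g, hg⟩ hg'
  rcases hg' with ⟨t, ht⟩ | ⟨t, ht⟩
  · exact Or.inl ⟨t, Subtype.ext ht⟩
  · exact Or.inr ⟨t, Subtype.ext ht⟩

/-- **Steinberg**: a pair of root subgroups satisfying (A), (B'), (C) is an image of `SL₂(K)`. -/
theorem exists_hom (S : St2 K Γ)
    (hmul : ∀ t u : K, t ≠ 0 → u ≠ 0 → S.h t * S.h u = S.h (t * u)) :
    ∃ φ : SpecialLinearGroup (Fin 2) K →* Γ, (∀ t, φ (slx t) = S.x t) ∧ (∀ t, φ (sly t) = S.y t) := by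
  let S' := genSt (prodSt (sl : St2 K _) S)
  have hmul' : ∀ t u : K, t ≠ 0 → u ≠ 0 → S'.h t * S'.h u = S'.h (t * u) := by
    intro t u ht hu
    apply Subtype.ext
    exact Prod.ext (sl_h_mul ht hu) (hmul t u ht hu)
  let π : ↥(Subgroup.closure (Set.range (prodSt (sl : St2 K _) S).x ∪
      Set.range (prodSt (sl : St2 K _) S).y)) →* SpecialLinearGroup (Fin 2) K :=
    (MonoidHom.fst _ _).comp (Subgroup.subtype _)
  have hbij : Function.Bijective π :=
    bijective_of_hom S' hmul' (genSt_gen _) π (fun _ => rfl) (fun _ => rfl)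
  let e := MulEquiv.ofBijective π hbij
  refine ⟨((MonoidHom.snd _ _).comp (Subgroup.subtype _)).comp e.symm.toMonoidHom, ?_, ?_⟩
  · intro t
    have h1 : e.symm (slx t) = S'.x t := by
      rw [MulEquiv.symm_apply_eq]; rfl
    show ((e.symm (slx t) : _) : SpecialLinearGroup (Fin 2) K × Γ).2 = _
    rw [h1]; rfl
  · intro t
    have h1 : e.symm (sly t) = S'.y t := by
      rw [MulEquiv.symm_apply_eq]; rfl
    show ((e.symm (sly t) : _) : SpecialLinearGroup (Fin 2) K × Γ).2 = _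
    rw [h1]; rfl

/-- `SL₂(K)` is generated by the elementary matrices -/
theorem sl_gen : Subgroup.closure (Set.range (slx : K → _) ∪ Set.range (sly : K → _)) = ⊤ := by
  rw [eq_top_iff]
  intro M _
  have hx : ∀ t : K, slx t ∈ Subgroup.closure (Set.range (slx : K → _) ∪ Set.range (sly : K → _)) :=
    fun t => Subgroup.subset_closure (Or.inl ⟨t, rfl⟩)
  have hy : ∀ t : K, sly t ∈ Subgroup.closure (Set.range (slx : K → _) ∪ Set.range (sly : K → _)) :=
    fun t => Subgroup.subset_closure (Or.inr ⟨t, rfl⟩)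
  rcases sl_surj M with ⟨p, c, r, rfl⟩ | ⟨a, t, -, rfl⟩
  · exact mul_mem (mul_mem (hx _) (hy _)) (hx _)
  · refine mul_mem (hx _) ?_
    exact mul_mem (mul_mem (mul_mem (hx _) (hy _)) (hx _)) (mul_mem (mul_mem (hx _) (hy _)) (hx _))

end Cfsg.Agent.Lib.Helper96.St2G
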