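import Mathlib
import Cfsg.Agent.Lib.Helper12.PGroupFixed

/-!
# `|P|` divides the dimension of `F[G]ε` (helper96; piece R6 of S4648)
-/

set_option autoImplicit false

namespace Cfsg.Agent.Lib.Helper96.SymAlgR6

open Module

section general

variable {F P W : Type*} [Field F] [Group P] [AddCommGroup W] [Module F W]

/-- The augmentation submodule `I W` of a representation. -/
def augSub (ρ : Representation F P W) : Submodule F W :=
  Submodule.span F {x | ∃ (u : P) (w : W), x = ρ u w - w}

theorem span_orbit_eq_top {p : ℕ} [Fact p.Prime] [CharP F p] [Finite P] (hP : IsPGroup p P)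
    (ρ : Representation F P W) {ι : Type*} (s : ι → W)
    (h : Submodule.span F (Set.range s) ⊔ augSub ρ = ⊤) :
    Submodule.span F (Set.range fun x : P × ι => ρ x.1 (s x.2)) = ⊤ := by
  by_contra hne
  set W' := Submodule.span F (Set.range fun x : P × ι => ρ x.1 (s x.2)) with hW'
  have hU : W'.dualAnnihilator ≠ ⊥ := by
    rwa [Ne, Submodule.dualAnnihilator_eq_bot_iff]
  have hstab : ∀ g, ∀ w ∈ W', ρ g w ∈ W' := by
    intro g w hw
    induction hw using Submodule.span_induction with
    | mem x hx =>
      obtain ⟨⟨u, i⟩, rfl⟩ := hx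
      apply Submodule.subset_span
      exact ⟨(g * u, i), by simp⟩
    | zero => rw [map_zero]; exact W'.zero_mem
    | add x y _ _ hx hy => rw [map_add]; exact W'.add_mem hx hy
    | smul c x _ hx => rw [map_smul]; exact W'.smul_mem c hx
  have hinv : ∀ g, ∀ f ∈ W'.dualAnnihilator, ρ.dual g f ∈ W'.dualAnnihilator := by
    intro g f hf
    rw [Submodule.mem_dualAnnihilator] at hf ⊢
    intro w hw
    exact hf _ (hstab g⁻¹ w hw)
  obtain ⟨f, hf, hf0, hfix⟩ := Cfsg.Agent.Lib.Helper12.exists_fixed_ne_zero hP ρ.dual _ hinv hU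
  apply hf0
  rw [Submodule.mem_dualAnnihilator] at hf
  have hker : (⊤ : Submodule F W) ≤ LinearMap.ker f := by
    rw [← h, sup_le_iff]
    constructor
    · rw [Submodule.span_le]
      rintro _ ⟨i, rfl⟩
      exact hf _ (Submodule.subset_span ⟨(1, i), by simp⟩)
    · unfold augSub
      rw [Submodule.span_le]
      rintro _ ⟨u, w, rfl⟩
      have h1 : ρ.dual u⁻¹ f w = f w := by rw [hfix]
      have h2 : ρ.dual u⁻¹ f w = f (ρ u w) := by
        show f (ρ (u⁻¹)⁻¹ w) = _
        rw [inv_inv]
      show f (ρ u w - w) = 0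
      rw [map_sub, ← h2, h1, sub_self]
  ext w
  exact hker (Submodule.mem_top (x := w))

theorem finrank_bound {p : ℕ} [Fact p.Prime] [CharP F p] [Finite P] (hP : IsPGroup p P)
    [FiniteDimensional F W] (ρ : Representation F P W) :
    finrank F W + Nat.card P * finrank F (augSub ρ) ≤ Nat.card P * finrank F W := by
  classical
  have : Fintype P := Fintype.ofFinite P
  set I := augSub ρ with hI
  let b := Module.finBasis F (W ⧸ I)
  have hs : ∀ i, ∃ w : W, I.mkQ w = b i := fun i => I.mkQ_surjective (b i)
  choose s hs using hs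
  have htop : Submodule.span F (Set.range s) ⊔ I = ⊤ := by
    rw [eq_top_iff]
    intro w _
    have hw : I.mkQ w = I.mkQ (∑ i, b.repr (I.mkQ w) i • s i) := by
      rw [map_sum]
      simp only [map_smul, hs]
      exact (b.sum_repr _).symm
    have hmem : w - ∑ i, b.repr (I.mkQ w) i • s i ∈ I := by
      have h0 : I.mkQ (w - ∑ i, b.repr (I.mkQ w) i • s i) = 0 := by
        rw [map_sub, ← hw, sub_self]
      exact (Submodule.Quotient.mk_eq_zero I).1 h0
    have : w = ∑ i, b.repr (I.mkQ w) i • s i + (w - ∑ i, b.repr (I.mkQ w) i • s i) := by abel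
    rw [this]
    refine Submodule.add_mem_sup (Submodule.sum_mem _ fun i _ => ?_) hmem
    exact Submodule.smul_mem _ _ (Submodule.subset_span ⟨i, rfl⟩)
  have h1 := span_orbit_eq_top hP ρ s htop
  have h2 := finrank_range_le_card (R := F) (fun x : P × Fin (finrank F (W ⧸ I)) => ρ x.1 (s x.2))
  rw [Set.finrank, h1, finrank_top, Fintype.card_prod, Fintype.card_fin] at h2
  have h3 := I.finrank_quotient_add_finrank
  rw [Nat.card_eq_fintype_card]
  calc finrank F W + Fintype.card P * finrank F I
      ≤ Fintype.card P * finrank F (W ⧸ I) + Fintype.card P * finrank F I := by omega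
    _ = Fintype.card P * finrank F W := by rw [← mul_add, h3]

/-- Restriction of a representation to a stable subspace. -/
def resRep (ρ : Representation F P W) (V : Submodule F W) (hV : ∀ u, ∀ v ∈ V, ρ u v ∈ V) :
    Representation F P V where
  toFun u := (ρ u).restrict (hV u)
  map_one' := by ext; simp
  map_mul' := by intros; ext; simp

theorem resRep_apply (ρ : Representation F P W) (V : Submodule F W)
    (hV : ∀ u, ∀ v ∈ V, ρ u v ∈ V) (u : P) (v : V) :
    ((resRep ρ V hV u v : V) : W) = ρ u v := rfl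

theorem dvd_of_summand {p : ℕ} [Fact p.Prime] [CharP F p] [Finite P] (hP : IsPGroup p P)
    [FiniteDimensional F W] (ρ : Representation F P W) (V V' : Submodule F W)
    (hV : ∀ u, ∀ v ∈ V, ρ u v ∈ V) (hV' : ∀ u, ∀ v ∈ V', ρ u v ∈ V')
    (hsup : V ⊔ V' = ⊤) (hinf : V ⊓ V' = ⊥) (N : ℕ) (hN : Nat.card P * N = finrank F W)
    (hfree : finrank F W ≤ N + finrank F (augSub ρ)) :
    Nat.card P ∣ finrank F V := by
  have h1 := finrank_bound hP (resRep ρ V hV)
  have h2 := finrank_bound hP (resRep ρ V' hV')
  have h3 : finrank F V + finrank F V' = finrank F W := by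
    have := Submodule.finrank_sup_add_finrank_inf_eq V V'
    rw [hsup, hinf, finrank_top, finrank_bot] at this
    omega
  set I := augSub (resRep ρ V hV) with hI
  set I' := augSub (resRep ρ V' hV') with hI'
  have h4 : augSub ρ ≤ I.map V.subtype ⊔ I'.map V'.subtype := by
    unfold augSub
    rw [Submodule.span_le]
    rintro _ ⟨u, w, rfl⟩
    have hw : w ∈ V ⊔ V' := by rw [hsup]; trivial
    obtain ⟨v, hv, v', hv', rfl⟩ := Submodule.mem_sup.1 hw
    have : ρ u (v + v') - (v + v') = (ρ u v - v) + (ρ u v' - v') := by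
      rw [map_add]; abel
    show ρ u (v + v') - (v + v') ∈ _
    rw [this]
    refine Submodule.add_mem_sup ?_ ?_
    · refine ⟨resRep ρ V hV u ⟨v, hv⟩ - ⟨v, hv⟩, Submodule.subset_span ⟨u, ⟨v, hv⟩, rfl⟩, rfl⟩
    · refine ⟨resRep ρ V' hV' u ⟨v', hv'⟩ - ⟨v', hv'⟩,
        Submodule.subset_span ⟨u, ⟨v', hv'⟩, rfl⟩, rfl⟩
  have h5 : finrank F (augSub ρ) ≤ finrank F I + finrank F I' := by
    calc finrank F (augSub ρ) ≤ finrank F (I.map V.subtype ⊔ I'.map V'.subtype : Submodule F W) :=
          Submodule.finrank_mono h4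
      _ ≤ finrank F (I.map V.subtype) + finrank F (I'.map V'.subtype) :=
          Submodule.finrank_add_le_finrank_add_finrank _ _
      _ = finrank F I + finrank F I' := by
          rw [Submodule.finrank_map_subtype_eq, Submodule.finrank_map_subtype_eq]
  set q := Nat.card P with hq
  set a := finrank F V
  set a' := finrank F V'
  set i := finrank F I
  set i' := finrank F I'
  set m := finrank F (augSub ρ)
  have h6 : q * (q * N) ≤ q * N + q * m := by
    rw [← mul_add]
    exact Nat.mul_le_mul_left q (by rw [hN]; exact hfree)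
  have h7 : q * m ≤ q * i + q * i' := by
    rw [← mul_add]
    exact Nat.mul_le_mul_left q h5
  have h8 : q * a + q * a' = q * (q * N) := by
    rw [← mul_add, h3, hN]
  have h9 : a + q * i = q * a := by omega
  exact (Nat.dvd_add_left (dvd_mul_right q i)).1 (h9 ▸ dvd_mul_right q a)

end general

section main

variable {F G : Type*} [Field F] [Group G]

/-- Left multiplication action of a subgroup on the group algebra. -/
noncomputable def lreg (P : Subgroup G) : Representation F P (MonoidAlgebra F G) :=
  (((Algebra.lmul F (MonoidAlgebra F G)) : MonoidAlgebra F G →* _).comp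
    (MonoidAlgebra.of F G)).comp P.subtype

theorem lreg_apply (P : Subgroup G) (u : P) (x : MonoidAlgebra F G) :
    lreg P u x = MonoidAlgebra.of F G u * x := rfl

theorem R6 [Fintype G] {p : ℕ} [Fact p.Prime] [CharP F p]
    (P : Subgroup G) (hP : IsPGroup p P) (ε : MonoidAlgebra F G) (hε : ε * ε = ε) :
    Nat.card P ∣ finrank F (LinearMap.range (LinearMap.mulRight F ε)) := by
  classical
  refine dvd_of_summand hP (lreg P) _ (LinearMap.range (LinearMap.mulRight F (1 - ε)))
    ?_ ?_ ?_ ?_ (Nat.card (G ⧸ P)) ?_ ?_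
  · rintro u _ ⟨x, rfl⟩
    exact ⟨MonoidAlgebra.of F G u * x, by simp [lreg_apply, mul_assoc]⟩
  · rintro u _ ⟨x, rfl⟩
    exact ⟨MonoidAlgebra.of F G u * x, by simp [lreg_apply, mul_assoc]⟩
  · rw [eq_top_iff]
    intro x _
    have : x = x * ε + x * (1 - ε) := by rw [mul_sub, mul_one]; abel
    rw [this]
    exact Submodule.add_mem_sup ⟨x, rfl⟩ ⟨x, rfl⟩
  · rw [eq_bot_iff]
    rintro x ⟨⟨a, ha⟩, ⟨b, hb⟩⟩
    have ha' : a * ε = x := ha
    have hb' : b * (1 - ε) = x := hb
    have h1 : x * ε = x := by rw [← ha', mul_assoc, hε]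
    have h2 : x * ε = 0 := by rw [← hb', mul_assoc, sub_mul, one_mul, hε, sub_self, mul_zero]
    show x = 0
    rw [← h1, h2]
  · have h1 : finrank F (MonoidAlgebra F G) = Nat.card G := by
      rw [Nat.card_eq_fintype_card]
      rw [(MonoidAlgebra.coeffLinearEquiv (S := F) (M := G) F).finrank_eq]
      exact Module.finrank_finsupp_self (ι := G) F
    rw [h1, mul_comm]
    exact (Subgroup.card_eq_card_quotient_mul_card_subgroup P).symm
  · set T : Submodule F (MonoidAlgebra F G) := Submodule.span F
      (Set.range fun q : G ⧸ P => MonoidAlgebra.of F G (Quotient.out q)⁻¹) with hT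
    have htop : T ⊔ augSub (lreg (F := F) P) = ⊤ := by
      rw [eq_top_iff]
      intro x _
      induction x using MonoidAlgebra.induction_on with
      | of g =>
        set t := Quotient.out (QuotientGroup.mk g⁻¹ : G ⧸ P) with ht
        have hu : t⁻¹ * g⁻¹ ∈ P := by
          rw [← QuotientGroup.eq, ht]
          exact QuotientGroup.out_eq' _
        have hg : g = (t⁻¹ * g⁻¹)⁻¹ * t⁻¹ := by group
        have : MonoidAlgebra.of F G g = MonoidAlgebra.of F G t⁻¹ +
            (lreg P (⟨t⁻¹ * g⁻¹, hu⟩ : P)⁻¹ (MonoidAlgebra.of F G t⁻¹)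
              - MonoidAlgebra.of F G t⁻¹) := by
          rw [lreg_apply, ← map_mul]
          have : (((⟨t⁻¹ * g⁻¹, hu⟩ : P)⁻¹ : P) : G) * t⁻¹ = g := by
            rw [Subgroup.coe_inv]; exact hg.symm
          rw [this]; abel
        rw [this]
        exact Submodule.add_mem_sup (Submodule.subset_span ⟨_, rfl⟩)
          (Submodule.subset_span ⟨_, _, rfl⟩)
      | add x y hx hy => exact Submodule.add_mem _ (hx trivial) (hy trivial)
      | smul c x hx => exact Submodule.smul_mem _ c (hx trivial)
    have : Fintype (G ⧸ P) := Fintype.ofFinite _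
    have h2 := finrank_range_le_card (R := F)
      (fun q : G ⧸ P => MonoidAlgebra.of F G (Quotient.out q)⁻¹)
    rw [Set.finrank, ← hT, ← Nat.card_eq_fintype_card] at h2
    calc finrank F (MonoidAlgebra F G)
        = finrank F (T ⊔ augSub (lreg (F := F) P) : Submodule F (MonoidAlgebra F G)) := by
          rw [htop, finrank_top]
      _ ≤ finrank F T + finrank F (augSub (lreg (F := F) P)) :=
          Submodule.finrank_add_le_finrank_add_finrank _ _
      _ ≤ _ := by omega

end main

end Cfsg.Agent.Lib.Helper96.SymAlgR6
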